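import Cfsg.Agent.Lib.Orth.AutStd
import Cfsg.Agent.Lib.Orth.Klein
import Cfsg.Agent.Lib.Schur.Basic
import Cfsg.Agent.S0813
import Cfsg.Agent.S0814
import Cfsg.Agent.S0815

/-! # Automorphisms of `Ω₅(q)` and `Ω₆^±(q)`, `q` odd, are induced by semisimilarities -/

set_option autoImplicit false
set_option linter.unusedSectionVars false

namespace Cfsg.Lib.A12S

open QuadraticMap Module Subgroup Cfsg.Lib.Orth Cfsg.Lib.Orth.Gam

variable {F V V' : Type*} [Field F] [AddCommGroup V] [Module F V] [AddCommGroup V'] [Module F V'] {Q : QuadraticForm F V}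
  {Q' : QuadraticForm F V'} [Finite F] [FiniteDimensional F V]

theorem surj_of_card (hQ : ND Q) (hn : 5 ≤ finrank F V) {H : Type*} [Group H] (e : PCom (O Q) ≃* H) (hf : Function.Surjective (fld Q))
    (h : Nat.card (MulAut H) = (ZOm Q).relIndex (GO Q) * Nat.card (F ≃+* F) * Nat.card H) : Function.Surjective (rho Q) := by
  have hE := not_exc_of_five_le (Q := Q) hn
  have : Finite (O Q) := .of_injective _ (ofO_injective (Q := Q))
  have l : Inn (PCom (O Q)) ≤ (rho Q).range := map_rho_ZOm (Q := Q) ▸ map_le_range _ _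
  have i : (Inn (PCom (O Q))).relIndex (rho Q).range = Nat.card (OutG Q) := by
    rw [← index_comap, show (Inn (PCom (O Q))).comap (rho Q) = ZOm Q from ext fun g => rho_mem_inn_iff hQ hE (by omega), index_eq_card]
  have j := card_mulAut_eq (center_pcom hQ hn)
  rw [card_eq_card_quotient_mul_card_subgroup (Inn (PCom (O Q)))] at j
  have k := (Inn (PCom (O Q))).relIndex_mul_index l
  rw [i, index_eq_card (Inn _), card_outG hf] at k
  rw [← Nat.card_congr (MulAut.congr e).toEquiv, ← Nat.card_congr e.toEquiv, card_mulAut_eq (center_pcom hQ hn)] at h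
  replace h := Nat.eq_of_mul_eq_mul_right Nat.card_pos h
  rw [← h] at k
  exact MonoidHom.range_eq_top.1 (index_eq_one.1 (Nat.eq_of_mul_eq_mul_left Nat.card_pos (k.trans (mul_one _).symm)))

theorem surj_congr (e : V ≃ₗ[F] V') {c : F} (hc : c ≠ 0) (he : ∀ v, Q' (e v) = c * Q v) (h : Function.Surjective (rho Q)) :
    Function.Surjective (rho Q') := fun β => by
  obtain ⟨g, j⟩ := h ((MulAut.congr (pcomCongr (O.congr e hc he))).symm β)
  exact ⟨_, by rw [rho_congr e hc he, j, MulEquiv.apply_symm_apply]⟩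

theorem rel6 (hQ : ND Q) (h2 : (2 : F) ≠ 0) (h : finrank F V = 6) [Decidable (O.neg Q ∈ commutator (O Q))] :
    (ZOm Q).relIndex (GO Q) = if O.neg Q ∈ commutator (O Q) then 8 else 4 := by
  have he : Even (finrank F V) := h ▸ by decide
  split_ifs with n
  · rw [(hasQuot_GO_dihedral hQ h2 (by omega) n).relIndex_eq, DihedralGroup.nat_card]
  · rw [← ZSO_eq_ZOm hQ (not_exc_of_five_le (by omega)) he (.inr n), (hasQuot_GO_ZSO hQ h2 he (by omega)).relIndex_eq]; simp

theorem surj5 (hQ : ND Q) (h : finrank F V = 5) : Function.Surjective (rho Q) := by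
  have := Fintype.ofFinite F
  have h2 := two_ne_zero_of_odd_finrank hQ (h ▸ by decide)
  obtain ⟨p, _, f, hp, hF⟩ := FiniteField.card' F
  have := Fact.mk hp
  obtain ⟨e⟩ := nonempty_pomega_five h2
  obtain ⟨φ, k, -⟩ := exists_field_gen (Q := qOdd 2 F) fun σ => qOdd_comp (σ : F →+* F) 2
  have p2 : p ≠ 2 := fun e => h2 ((two_eq_zero_iff_of_card hF).2 e)
  have o := hF ▸ odd_card_of_ne_two hF p2
  obtain ⟨i, c, hc, j⟩ := exists_sim_of_odd (nd_qOdd h2 2) hQ (by simp; decide) (by simp [h])
  refine surj_congr i hc j (surj_of_card (nd_qOdd h2 2) (by simp) ((pomegaEquiv _).symm.trans e) (surjective_fld k) ?_)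
  rw [Agent.S0814.result p f f.2 hF 2 le_rfl fun _ => le_trans (hp.two_le.lt_of_ne' p2) (Nat.le_self_pow f.2.ne' p),
    (hasQuot_GO_of_odd (nd_qOdd h2 2) (by simp; decide) (by simp)).relIndex_eq, Linear.card_ringAut hF, if_neg (by simp [p2]),
    Nat.gcd_eq_left (Nat.Odd.sub_odd o odd_one).two_dvd]
  simp

theorem surj6 (hQ : ND Q) (h2 : (2 : F) ≠ 0) (h : finrank F V = 6) : Function.Surjective (rho Q) := by
  classical
  have := Fintype.ofFinite F
  obtain ⟨p, _, f, hp, hF⟩ := FiniteField.card' F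
  have := Fact.mk hp
  have p2 : p ≠ 2 := fun e => h2 ((two_eq_zero_iff_of_card hF).2 e)
  have o := odd_card_of_ne_two hF p2
  have o' := Nat.odd_iff.1 o
  have tr : ∀ {V' : Type _} [AddCommGroup V'] [Module F V'] [FiniteDimensional F V'] {Q' : QuadraticForm F V'}, Q.Equivalent Q' →
      Function.Surjective (rho Q') → Function.Surjective (rho Q) := fun e j =>
    let ⟨i, k⟩ := equivalent_iff.1 e.symm; surj_congr i one_ne_zero (by simpa using k) j
  rcases wittIndex_eq_or hQ (m := 3) h with w | w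
  · obtain ⟨e⟩ := nonempty_pomega_six_plus (F := F)
    obtain ⟨φ, k, -⟩ := exists_field_gen (Q := qPlus 3 F) fun σ => qPlus_comp (σ : F →+* F) 3
    refine tr (equivalent_qPlus hQ (m := 3) h w.ge) (surj_of_card (nd_qPlus 3) (by simp) ((pomegaEquiv _).symm.trans e) (surjective_fld k) ?_)
    rw [Agent.S0813.result p f f.2 hF 4 (by decide) (by simp), Linear.card_PGL_eq_card_SL, ← Linear.card_PSL_mul, rel6 (nd_qPlus 3) h2 (by simp),
      Linear.card_ringAut hF, neg_mem_plus_iff o, ← mul_assoc, Fintype.card_fin, Nat.gcd_rec]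
    congr 1
    obtain j | j : Fintype.card F % 4 = 1 ∨ Fintype.card F % 4 = 3 := by omega
    · rw [show (Fintype.card F - 1) % 4 = 0 by omega]; simp [j]; ring
    · rw [show (Fintype.card F - 1) % 4 = 2 by omega, if_neg (show ¬ 4 = 2 by decide), if_neg (not_not.2 ⟨by decide, j⟩)]; simp; ring
  obtain ⟨b, hb⟩ := exists_aniso_one F
  have := Fintype.ofFinite (GaloisField p (2 * f))
  have hK : Fintype.card (GaloisField p (2 * f)) = Fintype.card F ^ 2 := by
    rw [← Nat.card_eq_fintype_card, GaloisField.card p _ (by simp), hF, ← pow_mul, mul_comm]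
  obtain ⟨e⟩ := nonempty_pomega_six_minus rfl hK hb
  obtain ⟨φ, k, -⟩ := exists_gam_of_minus (nd_qMinus 2 hb) (even_finrank_minus 2) (osign_qMinus 2 hb)
  refine tr (equivalent_qMinus hQ (m := 2) h (by omega) hb) (surj_of_card (nd_qMinus 2 hb) (by simp) ((pomegaEquiv _).symm.trans e) (surjective_fld k) ?_)
  rw [Agent.S0815.result p f f.2 hF hK 4 (by decide) (by simp), rel6 (nd_qMinus 2 hb) h2 (by simp), Linear.card_ringAut hF, neg_mem_minus_iff o 2 hb,
    Nat.gcd_rec]
  congr 1
  obtain j | j : Fintype.card F % 4 = 1 ∨ Fintype.card F % 4 = 3 := by omega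
  · rw [show (Fintype.card F + 1) % 4 = 2 by omega]; simp [j]; ring
  · rw [show (Fintype.card F + 1) % 4 = 0 by omega, if_pos ⟨by decide, j⟩]; simp; ring

/-- an endomorphism of a perfect group mapping onto `Ω` which preserves the preimage of the centre is induced by a semisimilarity -/
theorem exists_gam (hQ : ND Q) (hn : 5 ≤ finrank F V) (s : Function.Surjective (rho Q)) {L : Type*} [Group L]
    (θ : L →* commutator (O Q)) (sj : Function.Surjective θ) (pf : commutator L = ⊤) (β : MulAut L)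
    (k : ∀ l, θ (β l) ∈ center _ ↔ θ l ∈ center _) : ∃ γ : Gam Q, ∀ l, (θ (β l)).1 = cj Q γ (θ l) := by
  let π := (QuotientGroup.mk' (center (commutator (O Q)))).comp θ
  have ps : Function.Surjective π := (QuotientGroup.mk'_surjective _).comp sj
  have pk : ∀ l, l ∈ π.ker ↔ θ l ∈ center _ := fun l => QuotientGroup.eq_one_iff _
  let e := QuotientGroup.quotientKerEquivOfSurjective π ps
  obtain ⟨γ, j⟩ := s (e.symm.trans ((QuotientGroup.congr _ _ β (ext fun l => by
    obtain ⟨l, rfl⟩ := β.surjective l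
    exact (mem_map_equiv.trans (by simp [pk])).trans ((k l).symm.trans (pk _).symm))).trans e))
  have : Group.IsPerfect L := ⟨pf⟩
  refine ⟨γ, fun l => congrArg Subtype.val (DFunLike.congr_fun (Schur.eq_of_central_of_perfect (ξ := QuotientGroup.mk' (center _))
    (QuotientGroup.ker_mk' _).le (η := θ.comp β.toMonoidHom) (η' := (comAut _ (cj Q γ)).toMonoidHom.comp θ) (MonoidHom.ext fun l => ?_)) l)⟩
  have := DFunLike.congr_fun j (e l)
  simp only [MulEquiv.trans_apply, MulEquiv.symm_apply_apply] at this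
  exact this.symm

theorem autOm (hQ : ND Q) (hn : 5 ≤ finrank F V) (s : Function.Surjective (rho Q)) (β : MulAut (commutator (O Q))) :
    ∃ γ : Gam Q, ∀ l, (β l).1 = cj Q γ l :=
  exists_gam hQ hn s (.id _) Function.surjective_id (commutator_omega_eq_top hQ hn) β fun _ => mem_center_equiv β

end Cfsg.Lib.A12S
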