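import Cfsg.Agent.Lib.A12S.Ext
import Cfsg.Agent.Lib.GW.Basic
import Cfsg.Agent.Lib.Bal.Two

/-!
# S3101 (B): cores of involution centralizers in `C(α)/O ≤ ΓO₆(q)` (model free).

`n ∈ N = Od C(e)` acts on `range φ` as `γ ∈ ΓO₇` (`In`).  If the coordinate subspace `V_s` (`|s| ≥ 3`) is a common eigenspace of `e` and `ao 6` then `γ` normalizes
`K = Ω(V_s)`, `[n, φ K] ≤ N ⊓ φ K = 1` (`cen`), so `γ` fixes `ao i` for `i ∈ s` (`fix_ao`).  If `γ` fixes all `ao i` it is a sign matrix times a field automorphism,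
which is trivial (`one`).
-/

set_option autoImplicit false
set_option linter.unusedSectionVars false

namespace Cfsg.Lib.A12S

open Subgroup Cfsg.Lib.BG Cfsg.Lib.GW Cfsg.Lib.Orth Cfsg.Lib.Orth.Mono7 Cfsg.Lib.Orth.Gam Cfsg.Lib.A12S.K2

variable {F : Type*} [Field F] [Fintype F] {Y : Type*} [Group Y] [Finite Y] {φ : CM F →* Y} {al : Fin 7 → Y}

namespace Bo

variable {γ : Gam (QI F 7)} {n : Y} {m : ℕ} {f : Fin m ↪ Fin 7} {ε : Fin 7 → ℤˣ}

theorem odd_bot (h2 : (2 : F) ≠ 0) (hm : 3 ≤ m) {K : Subgroup (commutator (O (QI F m)))} (hK : K.Normal) (o : Odd (Nat.card K)) :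
    K = ⊥ := by
  have l := Core.pPrimeCore_eq_bot_iff.1 (Bal.pPrimeCore_two_pcom (ndI h2) h2 (by simpa using hm)) _
    (hK.map _ (QuotientGroup.mk'_surjective _)) (o.of_dvd_nat (card_map_dvd _ _)).coprime_two_right
  refine eq_bot_iff.2 fun x hx => eq_one_of_inverts_of_cent (x := 1) (o.of_dvd_nat (K.orderOf_dvd_natCard hx)) ?_ (by simp [mem_cent1])
  rw [one_mul, inv_one, mul_one]
  refine eq_inv_of_mul_eq_one_left (Subtype.ext ?_)
  rcases (mem_center_commutator_iff (ndI h2) (not_exc_of_two_ne_zero h2) (by simpa using hm)).1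
    ((QuotientGroup.eq_one_iff x).1 (l.le ⟨x, hx, rfl⟩)) with e | e <;> simp [e, Orth.neg_mul_neg]

theorem ao_eq (i : Fin 7) : ao F i = SI F 7 (-1 * ms i) := sp_eq _

theorem ao_mul (i k : Fin 7) : ao F i * ao F k = SI F 7 (ms i * ms k) := by
  rw [ao_eq, ao_eq, ← map_mul]; simp

theorem eg (h2 : (2 : F) ≠ 0) (h : cj _ γ (SI F 7 ε) = SI F 7 ε) {i j : Fin 7} (c : γ.T (Pi.single i 1) j ≠ 0) : ε i = ε j :=
  eig (Pi.basisFun F _) hoI h2 h (by simpa using c)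

/-- `n` acts as `γ` -/
structure In (φ : CM F →* Y) (n : Y) (γ : Gam (QI F 7)) : Prop where
  six : cj _ γ (ao F 6) = ao F 6
  act : ∀ y y' : CM F, cj _ γ y = y' → n * φ y * n⁻¹ = φ y'

theorem cm_mem (h : cj _ γ (ao F 6) = ao F 6) (y : CM F) : cj _ γ y ∈ CM F :=
  ⟨γ.cj_mem_commutator.2 y.2.1, mem_cent1.2 (by
    conv_lhs => rw [← h]
    conv_rhs => rw [← h]
    rw [← map_mul, ← map_mul, mem_cent1.1 y.2.2])⟩

theorem exists_in (P : Pk φ al) (hz : ∀ y, y * al 6 = al 6 * y) (n : Y) : ∃ γ, In φ n γ := by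
  obtain ⟨m, σ, e⟩ := P.act n (mem_cent1.2 (hz n))
  have c : ∀ y, cj _ (ofO _ m.1 * Φ F 7 σ) y = m * cj _ (Φ F 7 σ) y * m.1⁻¹ := fun y => by rw [map_mul, cj_ofO]; rfl
  refine ⟨_, (c _).trans ?_, fun y y' k => (e y ⟨_, cm_mem (Φ_sp ..) y⟩ (FA_iff.2 rfl)).trans
    (congrArg φ (Subtype.ext ((c _).symm.trans k)))⟩
  rw [show cj _ (Φ F 7 σ) (ao F 6) = ao F 6 from Φ_sp .., mul_inv_eq_iff_eq_mul]
  exact mem_cent1.1 m.2.2

theorem In.fix (h : In φ n γ) (P : Pk φ al) {y : CM F} (c : n ∈ 𝐂[φ y]) : cj _ γ y = y :=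
  congrArg Subtype.val (P.inj ((h.act y ⟨_, cm_mem h.six y⟩ rfl).symm.trans (mul_inv_eq_iff_eq_mul.2 (mem_cent1.1 c))))

theorem ext_cm (h2 : (2 : F) ≠ 0) (h6 : ¬ ∃ j, f j = 6) (g : commutator (O (QI F m))) : K2.ext f g.1 ∈ CM F :=
  ⟨(ext_mem f h2).2 g.2, (comm_ao h2).2 (.inl (ext_single f _ h6))⟩

theorem cen (h2 : (2 : F) ≠ 0) (hm : 3 ≤ m) (P : Pk φ al) (h : In φ n γ) (hε : SI F 7 ε ∈ CM F) (hn : n ∈ Od 𝐂[φ ⟨_, hε⟩])
    (h6 : ¬ ∃ j, f j = 6) (c : ∃ s, ε ∘ f = fun _ => s) (d : ∀ k, (¬ ∃ j, f j = k) → k ≠ 6 → ∀ j, ε k ≠ ε (f j))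
    (g : commutator (O (QI F m))) : cj _ γ (K2.ext f g.1) = K2.ext f g.1 := by
  let ψ : commutator (O (QI F m)) →* Y := φ.comp (((K2.ext f).comp (Subgroup.subtype _)).codRestrict _ (ext_cm h2 h6))
  have l : ∀ g, ψ g ∈ 𝐍(Od 𝐂[φ ⟨_, hε⟩]) := fun g => (Od_nml _).norm (mem_cent1.2 (by
    refine (map_mul φ _ _).symm.trans ((congrArg φ (Subtype.ext (mul_inv_eq_iff_eq_mul.1 ((SI_ext f ε g.1).trans
      (congrArg _ ?_))).symm)).trans (map_mul φ _ _))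
    obtain ⟨s, c⟩ := c
    rw [c, mul_inv_eq_iff_eq_mul]
    rcases Int.units_eq_one_or s with rfl | rfl
    · rw [show (fun _ => 1 : Fin m → ℤˣ) = 1 from rfl, map_one, mul_one, one_mul]; rfl
    · rw [show (fun _ => -1 : Fin m → ℤˣ) = -1 from rfl, signHom_neg, ← mem_center_iff.1 neg_mem_center]; rfl))
  have b := odd_bot h2 hm (K := (Od 𝐂[φ ⟨_, hε⟩]).comap ψ) ⟨fun x hx k => by
    rw [mem_comap, map_mul, map_mul, map_inv]; exact conj_mem_of_norm (l k) hx⟩ ((odd_Od _).of_dvd_nat (card_comap_dvd_of_injective _ _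
      fun x y e => Subtype.ext (ext_injective f (congrArg Subtype.val (P.inj e)))))
  have inv : ∀ {y}, cj _ γ y = y → cj _ γ⁻¹ y = y := fun e => by rw [map_inv, MulAut.inv_apply, MulEquiv.symm_apply_eq, e]
  obtain ⟨g', e⟩ := exists_ext f h2 (y := cj _ γ (K2.ext f g.1)) fun k hk => by
    have : γ⁻¹.T (Pi.single k 1) ∘ f = 0 := funext fun j => by_contra fun c => by
      refine d k hk ?_ j (eg h2 (inv (h.fix P (y := ⟨_, hε⟩) (Od_le _ hn))) c)
      rintro rfl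
      have := eg h2 (ε := -1 * ms 6) (inv (by rw [← ao_eq]; exact h.six)) c
      rw [Pi.mul_apply, Pi.mul_apply, ms, Pi.mulSingle_eq_of_ne fun e : f j = 6 => h6 ⟨j, e⟩] at this
      simp at this
    rw [cj_apply, show (K2.ext f g.1).1 _ = γ⁻¹.T (Pi.single k 1) from fext f (fun j => by
      rw [ext_in, this, map_zero]; exact (congrFun this j).symm) fun _ => ext_out f _ _, T_inv_T]
  have hg : g' ∈ commutator (O (QI F m)) := (ext_mem f h2).1 (e ▸ γ.cj_mem_commutator.2 ((ext_mem f h2).2 g.2))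
  have k : n * ψ g * n⁻¹ = ψ ⟨g', hg⟩ := h.act _ _ e.symm
  have : ⟨g', hg⟩ * g⁻¹ ∈ (Od 𝐂[φ ⟨_, hε⟩]).comap ψ := by
    rw [mem_comap, map_mul, map_inv, ← k, mul_assoc, mul_assoc, ← mul_assoc (ψ g)]
    exact mul_mem hn (conj_mem_of_norm (l g) (inv_mem hn))
  rw [← e, ← mul_inv_eq_one.1 (b.le this)]

theorem fix_ao (h2 : (2 : F) ≠ 0) (hs : ¬ IsSquare (2 : F)) (hm : 3 ≤ m)
    (h : ∀ g : commutator (O (QI F m)), cj _ γ (K2.ext f g.1) = K2.ext f g.1) (i : Fin m) : cj _ γ (ao F (f i)) = ao F (f i) := by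
  have e : γ.T (Pi.single (f i) 1) = γ.T (Pi.single (f i) 1) (f i) • Pi.single (f i) 1 := funext fun j => by
    by_cases c : j = f i
    · simp [c]
    rw [Pi.smul_apply, Pi.single_eq_of_ne c, smul_zero]
    by_contra d
    obtain ⟨k, hk⟩ : ∃ k, k ∉ insert i (Finset.univ.filter fun k => f k = j) := (Finset.exists_mem_notMem_of_card_lt_card
      (t := Finset.univ) (((Finset.card_insert_le _ _).trans (Nat.succ_le_succ (Finset.card_le_one.2 fun a ha b hb => f.injective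
        ((Finset.mem_filter.1 ha).2.trans (Finset.mem_filter.1 hb).2.symm)))).trans_lt (by simp; omega))).imp fun _ h => h.2
    simp only [Finset.mem_insert, Finset.mem_filter, Finset.mem_univ, true_and, not_or] at hk
    have a := ext_SI (F := F) f (ms i * ms k)
    rw [extend_ms] at a
    have := h ⟨_, (ext_mem f h2).1 (a ▸ sp_eq (F := F) _ ▸ (sp_mem h2 hs).2 ⟨by simp [Finset.prod_mul_distrib], by simp⟩)⟩
    rw [a] at this
    simpa [Pi.mulSingle_eq_of_ne c, Pi.mulSingle_eq_of_ne (Ne.symm hk.2), Pi.mulSingle_eq_of_ne (f.injective.ne (Ne.symm hk.1))] using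
      eg h2 this d
  rw [ao_eq, map_mul, map_mul, signHom_neg, cj_neg, SI_ms, cj_refl, e, refl_smul fun c => ?_]
  rw [c, zero_smul, T_eq_zero] at e
  simpa using congrFun e (f i)

theorem one (h2 : (2 : F) ≠ 0) (hm : 3 ≤ m) (P : Pk φ al) (hz : ∀ y, y * al 6 = al 6 * y) (h : In φ n γ) (o : Odd (orderOf n))
    (a : ∀ i, cj _ γ (ao F i) = ao F i) (c : ∀ g : commutator (O (QI F m)), cj _ γ (K2.ext f g.1) = K2.ext f g.1) : n = 1 := by
  obtain ⟨ε, e⟩ := diag h2 (by norm_num) (γ := γ) fun i k => by rw [← ao_mul, map_mul, a, a]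
  have s := (triv f h2 hm (ε := ε) (σ := γ.σ) fun g hg => .trans (by rw [e, map_mul, cj_ofO]; rfl) (c ⟨g, hg⟩)).1
  rw [s, map_one, mul_one] at e
  have k : n * n * (n * n) = 1 := by
    rcases P.cen (n * n) (mem_cent1.2 (hz _)) (fun y => mul_inv_eq_iff_eq_mul.1 (by
      refine .trans ?_ (h.act ⟨_, cm_mem h.six y⟩ y (by
        rw [← MulAut.mul_apply, e, ← map_mul, ← map_mul, SI_sq, map_one, map_one]; rfl))
      rw [← h.act y ⟨_, cm_mem h.six y⟩ rfl]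
      group)) with k | k
    · rw [k, mul_one]
    · obtain ⟨t, e⟩ := P.ao 6
      rw [k, ← e, ← map_mul, show (⟨_, t⟩ * ⟨_, t⟩ : CM F) = 1 from Subtype.ext ((ao_mul 6 6).trans (by
        rw [map_mul, SI_sq]; rfl)), map_one]
  exact orderOf_eq_one_iff.1 ((o.coprime_two_right.pow_right 2).eq_one_of_dvd (orderOf_dvd_of_pow_eq_one (by rw [← k, pow_two, pow_mul, pow_two, pow_two])))

theorem prod (P : Pk φ al) (L : List (Fin 7)) : ∃ h : SI F 7 (L.map fun i => -1 * ms i).prod ∈ CM F, φ ⟨_, h⟩ = (L.map al).prod := by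
  induction L with
  | nil => exact ⟨(map_one (SI F 7)).symm ▸ one_mem _, (congrArg φ (Subtype.ext (map_one (SI F 7)))).trans (map_one φ)⟩
  | cons i L ih =>
    obtain ⟨h, e⟩ := ih
    obtain ⟨h', e'⟩ := P.ao i
    have k : SI F 7 ((i :: L).map fun i => -1 * ms i).prod = ao F i * SI F 7 (L.map fun i => -1 * ms i).prod := by
      rw [List.map_cons, List.prod_cons, map_mul, ao_eq]
    exact ⟨k ▸ mul_mem h' h, by rw [List.map_cons (f := al), List.prod_cons (a := al i), ← e, ← e', ← map_mul]; exact congrArg φ (Subtype.ext k)⟩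

end Bo

open Bo

variable (hq : Fintype.card F % 8 = 3 ∨ Fintype.card F % 8 = 5) (P : Pk φ al) (hz : ∀ y, y * al 6 = al 6 * y)
include hq P hz

theorem Pk.od1 : Od 𝐂[al 0] = ⊥ := eq_bot_iff.2 fun n hn => by
  have hs : ¬ IsSquare (2 : F) := by rw [FiniteField.isSquare_two_iff]; omega
  have h2 : (2 : F) ≠ 0 := fun e => hs (e ▸ IsSquare.zero)
  obtain ⟨γ, h⟩ := exists_in P hz n
  obtain ⟨t, e⟩ := prod P [0]
  have c := Bo.cen (f := ⟨![1, 2, 3, 4, 5], by decide⟩) h2 (by norm_num) P h t (by rw [e]; simpa using hn) (by decide) (by decide) (by decide)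
  refine one h2 (by norm_num) P hz h (odd_of_mem_Od hn) (fun i => ?_) c
  obtain rfl | rfl | ⟨i, rfl⟩ := (by decide : ∀ i : Fin 7, i = 0 ∨ i = 6 ∨ ∃ k, ![1, 2, 3, 4, 5] k = i) i
  · obtain ⟨t, e⟩ := P.ao 0
    exact h.fix P (y := ⟨_, t⟩) (e ▸ Od_le _ hn)
  exacts [h.six, fix_ao h2 hs (by norm_num) c i]

theorem Pk.od3 : Od 𝐂[al 0 * al 1 * al 2] = ⊥ := eq_bot_iff.2 fun n hn => by
  have hs : ¬ IsSquare (2 : F) := by rw [FiniteField.isSquare_two_iff]; omega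
  have h2 : (2 : F) ≠ 0 := fun e => hs (e ▸ IsSquare.zero)
  obtain ⟨γ, h⟩ := exists_in P hz n
  obtain ⟨t, e⟩ := prod P [0, 1, 2]
  have hn' : n ∈ Od 𝐂[φ ⟨_, t⟩] := by rw [e]; simpa [mul_assoc] using hn
  have c := Bo.cen (f := ⟨![0, 1, 2], by decide⟩) h2 le_rfl P h t hn' (by decide) (by decide) (by decide)
  have c' := Bo.cen (f := ⟨![3, 4, 5], by decide⟩) h2 le_rfl P h t hn' (by decide) (by decide) (by decide)
  refine one h2 le_rfl P hz h (odd_of_mem_Od hn) (fun i => ?_) c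
  obtain rfl | ⟨i, rfl⟩ | ⟨i, rfl⟩ := (by decide : ∀ i : Fin 7, i = 6 ∨ (∃ k, ![0, 1, 2] k = i) ∨ ∃ k, ![3, 4, 5] k = i) i
  exacts [h.six, fix_ao h2 hs le_rfl c i, fix_ao h2 hs le_rfl c' i]

theorem Pk.od4 : Od 𝐂[al 0 * al 1 * al 2 * al 3] ≤ 𝐂[al 0] := fun n hn => by
  have hs : ¬ IsSquare (2 : F) := by rw [FiniteField.isSquare_two_iff]; omega
  have h2 : (2 : F) ≠ 0 := fun e => hs (e ▸ IsSquare.zero)
  obtain ⟨γ, h⟩ := exists_in P hz n
  obtain ⟨t, e⟩ := prod P [0, 1, 2, 3]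
  have c := Bo.cen (f := ⟨![0, 1, 2, 3], by decide⟩) h2 (by norm_num) P h t (by rw [e]; simpa [mul_assoc] using hn) (by decide) (by decide)
    (by decide)
  obtain ⟨t, e⟩ := P.ao 0
  exact mem_cent1.2 (mul_inv_eq_iff_eq_mul.1 (e ▸ h.act ⟨_, t⟩ _ (fix_ao h2 hs (by norm_num) c 0)))

end Cfsg.Lib.A12S
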