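import Cfsg.Agent.Lib.A12S.ODef
import Cfsg.Agent.Lib.A12S.Aut56
import Cfsg.Agent.Lib.Orth.TwoRank

/-! # S3101: sums of squares, sign matrices, field automorphisms, coordinate subspaces -/

set_option autoImplicit false
set_option linter.unusedSectionVars false

namespace Cfsg.Lib.A12S.K2

open Equiv hiding refl_apply conj_refl
open Subgroup QuadraticMap Module Cfsg.Lib.Orth Cfsg.Lib.Orth.Gam Cfsg.Lib.Orth.Mono7

variable {F V : Type*} [Field F] [AddCommGroup V] [Module F V] {Q : QuadraticForm F V}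

theorem units_cast_inj (h2 : (2 : F) ≠ 0) {a b : ℤˣ} (e : ((a : ℤ) : F) = ((b : ℤ) : F)) : a = b := sg_inj h2 e

section
variable {n : ℕ} (b : Basis (Fin n) F V) (ho : ∀ i j, i ≠ j → polar Q (b i) (b j) = 0)

theorem sign_repr (ε : Fin n → ℤˣ) (x : V) (j : Fin n) : b.repr ((Orth.signHom b ho ε).1 x) j = ((ε j : ℤ) : F) * b.repr x j := by
  refine DFunLike.congr_fun (b.ext (f₁ := b.coord j ∘ₗ (Orth.signHom b ho ε).1.toLinearMap) (f₂ := ((ε j : ℤ) : F) • b.coord j)
    fun i => ?_) x
  by_cases h : i = j <;> simp [Orth.signHom_apply, h]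

theorem eig (h2 : (2 : F) ≠ 0) {γ : Gam Q} {ε δ : Fin n → ℤˣ} (h : cj Q γ (Orth.signHom b ho ε) = Orth.signHom b ho δ) {i j : Fin n}
    (hj : b.repr (γ.T (b i)) j ≠ 0) : ε i = δ j := by
  have e := congrArg (fun x => b.repr x j) (cj_apply_T γ (Orth.signHom b ho ε) (b i))
  simp only [h, sign_repr, Orth.signHom_apply, γ.map_smul, map_intCast, _root_.map_smul, Finsupp.smul_apply, smul_eq_mul] at e
  exact units_cast_inj h2 (mul_right_cancel₀ hj e).symm

theorem exists_repr_ne (γ : Gam Q) (i : Fin n) : ∃ j, b.repr (γ.T (b i)) j ≠ 0 := by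
  by_contra! h
  exact b.ne_zero i (γ.T_eq_zero.1 (b.repr.map_eq_zero_iff.1 (Finsupp.ext h)))

theorem signHom_neg : Orth.signHom b ho (-1) = O.neg Q := Subtype.ext (b.ext' fun i => by simp [Orth.signHom_apply])

end

theorem scal_of_cj [Finite F] [FiniteDimensional F V] (hQ : ND Q) (h2 : (2 : F) ≠ 0) (h3 : 3 ≤ finrank F V) {γ : Gam Q}
    (h : ∀ o ∈ commutator (O Q), cj Q γ o = o) : ∃ s, scal Q s = γ :=
  (ker_rho hQ (not_exc_of_two_ne_zero h2) h3).le (MulEquiv.ext fun x => by
    induction x using QuotientGroup.induction_on with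
    | H o => exact (rho_mk γ o).trans (congrArg _ (Subtype.ext (h _ o.2))))

variable {m n : ℕ}

/-- the sign vector of a reflection -/
abbrev ms (i : Fin n) : Fin n → ℤˣ := Pi.mulSingle i (-1)

/-- the sum of squares -/
abbrev QI (F : Type*) [Field F] (n : ℕ) : QuadraticForm F (Fin n → F) := qDiag fun _ => 1

theorem hoI (i j : Fin n) (h : i ≠ j) : polar (QI F n) (Pi.basisFun F _ i) (Pi.basisFun F _ j) = 0 := by
  simp [polar_qDiag_single, h]

/-- sign matrices -/
noncomputable abbrev SI (F : Type*) [Field F] (n : ℕ) : (Fin n → ℤˣ) →* O (QI F n) := Orth.signHom (Pi.basisFun F _) hoI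

theorem ndI (h2 : (2 : F) ≠ 0) : ND (QI F n) := nd_qDiag h2 fun _ => one_ne_zero

theorem SI_apply (ε : Fin n → ℤˣ) (v : Fin n → F) (i : Fin n) : (SI F n ε).1 v i = ((ε i : ℤ) : F) * v i :=
  sign_repr (Pi.basisFun F _) hoI ε v i

theorem sp_eq (ε : Fin 7 → ℤˣ) : sp F ε 1 = SI F 7 ε := O.ext fun v => funext fun i => (SI_apply ε v i).symm

theorem SI_sq (ε : Fin n → ℤˣ) : SI F n ε * SI F n ε = 1 := by
  rw [← map_mul, show ε * ε = 1 from funext fun i => Int.units_mul_self _, map_one]

theorem SI_inv (ε : Fin n → ℤˣ) : (SI F n ε)⁻¹ = SI F n ε := inv_eq_of_mul_eq_one_right (SI_sq ε)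

theorem QI_single (i : Fin n) : QI F n (Pi.single i 1) = 1 := by simp [qDiag_single]

theorem SI_ms (i : Fin n) : SI F n (ms i) = refl (QI F n) (Pi.single i 1) :=
  (signHom_single _ hoI (by simp [QI_single])).trans (by rw [Pi.basisFun_apply])

theorem QI_comp (σ : F ≃+* F) (v : Fin n → F) : QI F n (σ ∘ v) = σ (QI F n v) := by simp [qDiag_apply]

/-- field automorphisms -/
def Φ (F : Type*) [Field F] (n : ℕ) : (F ≃+* F) →* Gam (QI F n) := MonoidHom.mk' (fun σ => field σ (QI_comp σ)) fun σ τ =>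
  ext' rfl (by simp) fun v => by simp only [mul_T, field_T]; rfl

theorem Φ_T (σ : F ≃+* F) (v : Fin n → F) : (Φ F n σ).T v = σ ∘ v := field_T σ (QI_comp σ) v

@[simp] theorem Φ_σ (σ : F ≃+* F) : (Φ F n σ).σ = σ := rfl

@[simp] theorem Φ_c (σ : F ≃+* F) : (Φ F n σ).c = 1 := rfl

theorem cj_Φ_iff {σ : F ≃+* F} {y y' : O (QI F n)} : cj _ (Φ F n σ) y = y' ↔ ∀ v, y'.1 (σ ∘ v) = σ ∘ y.1 v :=
  ⟨fun e v => by rw [← e, ← Φ_T, ← Φ_T, cj_apply_T], fun e => eq_cj_of fun v => by rw [Φ_T, Φ_T, e]⟩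

theorem FA_iff {σ : F ≃+* F} {y y' : O (Q7 F)} : FA σ y y' ↔ cj _ (Φ F 7 σ) y = y' := cj_Φ_iff.symm

theorem Φ_SI (σ : F ≃+* F) (ε : Fin n → ℤˣ) : cj _ (Φ F n σ) (SI F n ε) = SI F n ε :=
  cj_Φ_iff.2 fun v => funext fun i => by simp [SI_apply]

theorem Φ_sp (σ : F ≃+* F) (ε : Fin 7 → ℤˣ) (π : Perm (Fin 7)) : cj _ (Φ F 7 σ) (sp F ε π) = sp F ε π :=
  cj_Φ_iff.2 fun v => funext fun i => by simp [sp_apply, sg]

theorem supp (h2 : (2 : F) ≠ 0) (hn : 3 ≤ n) {γ : Gam (QI F n)} {π : Perm (Fin n)}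
    (h : ∀ i k, cj _ γ (SI F n (ms i * ms k)) = SI F n (ms (π i) * ms (π k))) {i j : Fin n} (hj : γ.T (Pi.single i 1) j ≠ 0) :
    j = π i := by
  obtain ⟨j, rfl⟩ := π.surjective j
  by_contra e
  obtain ⟨k, hk⟩ : ∃ k, k ∉ ({i, j} : Finset (Fin n)) := (Finset.exists_mem_notMem_of_card_lt_card
    (t := Finset.univ) (Finset.card_le_two.trans_lt (by simp; omega))).imp fun _ h => h.2
  simp only [Finset.mem_insert, Finset.mem_singleton, not_or] at hk
  have := eig (Pi.basisFun F _) hoI h2 (h i k) (i := i) (j := π j) (by simpa using hj)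
  simp [Pi.mulSingle_eq_of_ne (Ne.symm hk.1), Pi.mulSingle_eq_of_ne e, Pi.mulSingle_eq_of_ne (π.injective.ne (Ne.symm hk.2))] at this

theorem diag (h2 : (2 : F) ≠ 0) (hn : 3 ≤ n) {γ : Gam (QI F n)}
    (h : ∀ i k, cj _ γ (SI F n (ms i * ms k)) = SI F n (ms i * ms k)) : ∃ ε, cj _ γ = cj _ (ofO _ (SI F n ε) * Φ F n γ.σ) := by
  have e : ∀ i, (γ * (Φ F n γ.σ)⁻¹).T (Pi.single i 1) = γ.T (Pi.single i 1) i • Pi.single i 1 := fun i => funext fun j => by
    rw [← map_inv, mul_T, Φ_T, show (γ.σ⁻¹ : F ≃+* F) ∘ Pi.single i 1 = Pi.single i 1 from funext fun k => by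
      simp [Pi.single_apply]]
    by_cases c : j = i
    · simp [c]
    · simpa [c] using of_not_not (mt (supp h2 hn (π := 1) h) c)
  have s1 : (γ * (Φ F n γ.σ)⁻¹).σ = 1 := by simp
  obtain ⟨s, o, ho⟩ := exists_eq_scal_mul' s1 ⟨γ.T (Pi.single ⟨0, by omega⟩ 1) ⟨0, by omega⟩, by
    have := map_Q' s1 (Pi.single ⟨0, by omega⟩ 1)
    rwa [e, Q_smul, QI_single, mul_one, mul_one, pow_two, eq_comm] at this⟩
  obtain ⟨ε, rfl⟩ := mem_range_signHom (Pi.basisFun F _) hoI (g := o) fun i => by
    have e1 : o.1 (Pi.single i 1) = ((s : F)⁻¹ * γ.T (Pi.single i 1) i) • Pi.single i 1 := by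
      rw [mul_smul, ← e, ho]; simp
    have := O.map_Q o (Pi.single i 1)
    rw [e1, Q_smul, QI_single, mul_one, pow_two, mul_self_eq_one_iff] at this
    rcases this with c | c <;> simp [e1, c]
  exact ⟨ε, by rw [mul_inv_eq_iff_eq_mul.1 ho, mul_assoc, map_mul, cj_scal, one_mul]; simp⟩

variable (f : Fin m ↪ Fin n)

theorem fext {α : Type*} {v w : Fin n → α} (h1 : ∀ j, v (f j) = w (f j)) (h2 : ∀ k, (¬ ∃ j, f j = k) → v k = w k) : v = w :=
  funext fun k => by
    by_cases c : ∃ j, f j = k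
    · obtain ⟨j, rfl⟩ := c; exact h1 j
    · exact h2 k c

theorem QI_split (v : Fin n → F) : QI F n v = QI F m (v ∘ f) + ∑ k ∈ (Finset.univ.map f)ᶜ, v k ^ 2 := by
  rw [qDiag_apply, qDiag_apply, ← Finset.sum_add_sum_compl (Finset.univ.map f), Finset.sum_map]; simp

/-- extension by the identity -/
noncomputable def ext : O (QI F m) →* O (QI F n) where
  toFun g := ⟨{
    toFun := fun v => Function.extend f (g.1 (v ∘ f)) v
    map_add' := fun u v => fext f (fun j => by simp [f.injective.extend_apply, Pi.add_comp]) fun k c => by simp [Function.extend_apply' _ _ _ c]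
    map_smul' := fun a v => fext f (fun j => by simp [f.injective.extend_apply, Pi.smul_comp]) fun k c => by simp [Function.extend_apply' _ _ _ c]
    invFun := fun v => Function.extend f ((g⁻¹).1 (v ∘ f)) v
    left_inv := fun v => fext f (fun j => by simp [f.injective.extend_apply, Function.extend_comp f.injective])
      fun k c => by simp [Function.extend_apply' _ _ _ c]
    right_inv := fun v => fext f (fun j => by simp [f.injective.extend_apply, Function.extend_comp f.injective])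
      fun k c => by simp [Function.extend_apply' _ _ _ c] }, fun v => by
    change QI F n (Function.extend _ _ _) = _
    rw [QI_split f, QI_split f v, Function.extend_comp f.injective, O.map_Q]
    exact congrArg _ (Finset.sum_congr rfl fun k c => by rw [Function.extend_apply' _ _ _ (by simpa using c)])⟩
  map_one' := O.ext fun v => fext f (fun j => f.injective.extend_apply ..) fun k c => Function.extend_apply' _ _ _ c
  map_mul' g h := O.ext fun v => fext f (fun j => by
      change Function.extend _ _ _ _ = Function.extend _ (g.1 (Function.extend _ _ _ ∘ f)) _ _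
      rw [f.injective.extend_apply, f.injective.extend_apply, Function.extend_comp f.injective]; rfl)
    fun k c => (Function.extend_apply' _ _ _ c).trans ((Function.extend_apply' _ _ _ c).trans (Function.extend_apply' _ _ _ c)).symm

theorem ext_comp (g : O (QI F m)) (v : Fin n → F) : (ext f g).1 v ∘ f = g.1 (v ∘ f) := Function.extend_comp f.injective ..

theorem ext_in (g : O (QI F m)) (v : Fin n → F) (j : Fin m) : (ext f g).1 v (f j) = g.1 (v ∘ f) j := congrFun (ext_comp f g v) j

theorem ext_out (g : O (QI F m)) (v : Fin n → F) {k : Fin n} (c : ¬ ∃ j, f j = k) : (ext f g).1 v k = v k :=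
  Function.extend_apply' _ _ _ c

theorem ext_injective : Function.Injective (ext (F := F) f) := fun g h e => O.ext fun v => by
  rw [← Function.extend_comp f.injective v 0, ← ext_comp, ← ext_comp, e]

theorem ext_single (g : O (QI F m)) {k : Fin n} (c : ¬ ∃ j, f j = k) : (ext f g).1 (Pi.single k 1) = Pi.single k 1 :=
  fext f (fun j => by
    have : (Pi.single k 1 : Fin n → F) ∘ f = 0 := funext fun j => Pi.single_eq_of_ne (fun e => c ⟨j, e⟩) _
    rw [ext_in, this, map_zero]; exact (congrFun this j).symm) fun _ => ext_out f g _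

theorem QI_extend (u : Fin m → F) : QI F n (Function.extend f u 0) = QI F m u := by
  rw [QI_split f, Function.extend_comp f.injective, Finset.sum_eq_zero fun k c => by
    rw [Function.extend_apply' _ _ _ (by simpa using c)]; simp, add_zero]

theorem ext_refl (u : Fin m → F) : ext f (refl _ u) = refl (QI F n) (Function.extend f u 0) := O.ext fun v => by
  have : polar (QI F n) (Function.extend f u 0) v = polar (QI F m) u (v ∘ f) := by
    rw [polar_qDiag, polar_qDiag, ← Finset.sum_add_sum_compl (Finset.univ.map f), Finset.sum_map, Finset.sum_eq_zero (s := _ᶜ) fun k c => by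
      rw [Function.extend_apply' _ _ _ (by simpa using c)]; simp]
    simp [f.injective.extend_apply]
  refine fext f (fun j => ?_) fun k c => ?_
  · simp [ext_in, refl_apply, this, QI_extend, f.injective.extend_apply]
  · simp [ext_out f _ _ c, refl_apply, Function.extend_apply' _ _ _ c]

theorem ext_mem [Finite F] (h2 : (2 : F) ≠ 0) {g : O (QI F m)} : ext f g ∈ commutator (O (QI F n)) ↔ g ∈ commutator (O (QI F m)) := by
  have : dsHom (ndI h2) (ext f g) = dsHom (ndI h2) g := by
    induction g using refl_induction (ndI h2) (not_exc_of_two_ne_zero h2) with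
    | h1 => simp
    | hmul v g hv ih =>
      have := (QI_extend f v).trans_ne hv
      rw [map_mul, map_mul, map_mul, ih, ext_refl, dsHom_apply _ (refl _ _), dsHom_apply _ (refl _ _), dickson_refl _ hv,
        dickson_refl _ this, spinor_refl _ hv, spinor_refl _ this, QI_extend]
  rw [← ker_dsHom (ndI h2) (not_exc_of_two_ne_zero h2), ← ker_dsHom (ndI h2) (not_exc_of_two_ne_zero h2), MonoidHom.mem_ker,
    MonoidHom.mem_ker, this]

theorem exists_ext (h2 : (2 : F) ≠ 0) {y : O (QI F n)} (h : ∀ k, (¬ ∃ j, f j = k) → y.1 (Pi.single k 1) = Pi.single k 1) :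
    ∃ g, ext f g = y := by
  have o : ∀ w k, (¬ ∃ j, f j = k) → y.1 w k = w k := fun w k c => by
    have := O.map_polar y (Pi.single k 1) w
    rw [h k c, polar_qDiag_single, polar_qDiag_single] at this
    simpa [h2] using this
  refine ⟨O.ofLinear (ndI h2) (LinearMap.funLeft F F f ∘ₗ y.1.toLinearMap ∘ₗ Function.ExtendByZero.linearMap F f) fun v => ?_,
    Subtype.ext ((Pi.basisFun F _).ext' fun k => ?_)⟩
  · have := QI_split f (y.1 (Function.extend f v 0))
    rw [O.map_Q, QI_extend, Finset.sum_eq_zero fun k c => by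
      rw [o _ _ (by simpa using c), Function.extend_apply' _ _ _ (by simpa using c)]; simp, add_zero] at this
    exact this.symm
  rw [Pi.basisFun_apply]
  by_cases c : ∃ j, f j = k
  · obtain ⟨j, rfl⟩ := c
    refine fext f (fun i => ?_) fun k c => by rw [ext_out f _ _ c, o _ _ c]
    rw [ext_in]
    exact congrArg (fun x => y.1 x (f i)) (fext f (fun i => f.injective.extend_apply ..) fun k c =>
      (Function.extend_apply' _ _ _ c).trans (Pi.single_eq_of_ne (M := fun _ => F) (fun e => c ⟨j, e.symm⟩) _).symm)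
  · rw [ext_single f _ c, h k c]

theorem ext_SI (ε : Fin m → ℤˣ) : ext f (SI F m ε) = SI F n (Function.extend f ε 1) := O.ext fun v =>
  fext f (fun j => by simp [ext_in, SI_apply, f.injective.extend_apply]) fun k c => by
    simp [ext_out f _ _ c, SI_apply, Function.extend_apply' _ _ _ c]

theorem extend_ms (i k : Fin m) : Function.extend f (ms i * ms k) 1 = ms (f i) * ms (f k) :=
  fext f (fun j => by simp [f.injective.extend_apply, Pi.mulSingle_apply]) fun l c => by
    simp [Function.extend_apply' _ _ _ c, Pi.mulSingle_eq_of_ne fun e : l = f i => c ⟨i, e.symm⟩,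
      Pi.mulSingle_eq_of_ne fun e : l = f k => c ⟨k, e.symm⟩]

theorem SI_ext (ε : Fin n → ℤˣ) (g : O (QI F m)) :
    SI F n ε * ext f g * (SI F n ε)⁻¹ = ext f (SI F m (ε ∘ f) * g * (SI F m (ε ∘ f))⁻¹) := by
  rw [SI_inv, SI_inv]
  refine O.ext fun v => fext f (fun j => ?_) fun k c => ?_
  · simp only [O.mul_apply, ext_in, SI_apply]
    exact congrArg (fun x => _ * g.1 x j) (funext fun i => by simp [SI_apply])
  · simp only [O.mul_apply, ext_out f _ _ c, SI_apply]
    rcases Int.units_eq_one_or (ε k) with e | e <;> simp [e]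

theorem Φ_ext (σ : F ≃+* F) (g : O (QI F m)) : cj _ (Φ F n σ) (ext f g) = ext f (cj _ (Φ F m σ) g) :=
  cj_Φ_iff.2 fun v => fext f (fun j => by
    rw [ext_in, Function.comp_assoc, cj_Φ_iff.1 rfl, Function.comp_apply, Function.comp_apply, ext_in]) fun k c => by
      simp [ext_out f _ _ c]

theorem triv [Finite F] (h2 : (2 : F) ≠ 0) (hm : 3 ≤ m) {ε : Fin n → ℤˣ} {σ : F ≃+* F}
    (h : ∀ g ∈ commutator (O (QI F m)), SI F n ε * cj _ (Φ F n σ) (ext f g) * (SI F n ε)⁻¹ = ext f g) :
    σ = 1 ∧ ∀ i j, ε (f i) = ε (f j) := by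
  obtain ⟨s, hs⟩ := scal_of_cj (ndI h2) h2 (by simpa using hm) (γ := ofO _ (SI F m (ε ∘ f)) * Φ F m σ) fun g hg =>
    ext_injective f (by rw [← h g hg, Φ_ext, SI_ext, map_mul, cj_ofO]; rfl)
  obtain rfl : σ = 1 := by simpa using (congrArg Gam.σ hs).symm
  have : ∀ i, (s : F) = (ε (f i) : ℤ) := fun i => by
    simpa [SI_apply] using congrArg (fun γ : Gam _ => γ.T (Pi.single i 1) i) hs
  exact ⟨rfl, fun i j => units_cast_inj h2 ((this i).symm.trans (this j))⟩

theorem comm_ao (h2 : (2 : F) ≠ 0) {y : O (Q7 F)} {i : Fin 7} :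
    y ∈ centralizer {ao F i} ↔ y.1 (Pi.single i 1) = Pi.single i 1 ∨ y.1 (Pi.single i 1) = -Pi.single i 1 := by
  have q := (QI_single (F := F) i).trans_ne one_ne_zero
  have e : ao F i = O.neg _ * refl _ (Pi.single i 1) := by rw [ao, sp_eq, map_mul, signHom_neg, SI_ms]
  rw [mem_centralizer_singleton_iff, e, ← mul_assoc, mem_center_iff.1 neg_mem_center y, mul_assoc, mul_assoc, mul_right_inj,
    ← mul_inv_eq_iff_eq_mul, conj_refl, eq_comm, refl_eq_refl_iff (ndI h2) q ((O.map_Q y _).trans_ne q)]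
  refine ⟨fun ⟨c, _, hc⟩ => ?_, fun h => h.elim (fun h => ⟨1, one_ne_zero, by simp [h]⟩) fun h => ⟨-1, by simp, by simp [h]⟩⟩
  have := O.map_Q y (Pi.single i 1)
  rw [hc, Q_smul, QI_single, mul_one, pow_two, mul_self_eq_one_iff] at this
  rcases this with c | c <;> simp [hc, c]

end Cfsg.Lib.A12S.K2
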