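import Cfsg.Agent.Lib.Schur.Basic
import Cfsg.Agent.Lib.Inv.SylowTwo

/-! # S3101 (K2a): generic group theory for `K2` -/

set_option autoImplicit false

namespace Cfsg.Lib.A12S.K2

open Equiv Subgroup

theorem comm_two {L G : Type*} [Group L] [Group G] {f : L →* G} {z : L} (k : ∀ l, f l = 1 ↔ l = 1 ∨ l = z) {x : L}
    (hx : f x = 1) (y : L) : y * x = x * y := by
  rcases (k x).1 hx with rfl | rfl
  · simp
  rcases (k (y * x * y⁻¹)).1 (by simp [hx]) with e | e
  · rw [conj_eq_one_iff.1 e]; simp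
  · exact mul_inv_eq_iff_eq_mul.1 e

/-- uniqueness of the perfect double cover when the multiplier has cyclic `2`-part -/
theorem dbl {G A L M : Type*} [Group G] [CommGroup A] [Group L] [Group M] [Finite L] [Finite M]
    (hA : HasSchurMultiplier G A) (a : A) (ha : ∀ x, ∃ y, x = y * y ∨ x = a * (y * y)) (f : L →* G) (g : M →* G)
    (sf : Function.Surjective f) (sg : Function.Surjective g) (pL : commutator L = ⊤) (pM : commutator M = ⊤)
    {z : L} {w : M} (hz : z ≠ 1) (hw : w ≠ 1) (kf : ∀ l, f l = 1 ↔ l = 1 ∨ l = z) (kg : ∀ l, g l = 1 ↔ l = 1 ∨ l = w) :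
    ∃ e : L ≃* M, ∀ l, g (e l) = f l := by
  let P := (f.comp (MonoidHom.fst L M)).eqLocus (g.comp (MonoidHom.snd L M))
  let D := commutator P
  let p : D →* L := ((MonoidHom.fst L M).comp P.subtype).comp D.subtype
  let r : D →* M := ((MonoidHom.snd L M).comp P.subtype).comp D.subtype
  have pr : ∀ d, g (r d) = f (p d) := fun d => d.1.2.symm
  have sp : Function.Surjective p := fun l => by
    obtain ⟨d, hd, e⟩ : l ∈ (commutator P).map ((MonoidHom.fst L M).comp P.subtype) := by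
      rw [map_commutator_eq, MonoidHom.range_eq_top.2 fun l => (sg (f l)).elim fun m e => ⟨⟨(l, m), e.symm⟩, rfl⟩]
      exact pL.ge trivial
    exact ⟨⟨d, hd⟩, e⟩
  have sr : Function.Surjective r := fun l => by
    obtain ⟨d, hd, e⟩ : l ∈ (commutator P).map ((MonoidHom.snd L M).comp P.subtype) := by
      rw [map_commutator_eq, MonoidHom.range_eq_top.2 fun l => (sf (g l)).elim fun m e => ⟨⟨(m, l), e⟩, rfl⟩]
      exact pM.ge trivial
    exact ⟨⟨d, hd⟩, e⟩
  have ex : ∀ d d' : D, p d = p d' → r d = r d' → d = d' := fun d d' e e' => Subtype.ext (Subtype.ext (Prod.ext e e'))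
  have ce : (f.comp p).ker ≤ center D := fun d hd => mem_center_iff.2 fun y => ex _ _
    (by rw [map_mul, map_mul, comm_two kf hd]) (by rw [map_mul, map_mul, comm_two kg ((pr d).trans hd)])
  have pD : commutator D = ⊤ := by
    refine map_injective (D.subtype_injective) ?_
    rw [map_subtype_commutator, ← MonoidHom.range_eq_map, range_subtype]
    refine (Schur.commutator_eq_of_mul_center fun x => ?_).symm
    obtain ⟨d, hd⟩ := sp x.1.1
    have h1 : (d.1⁻¹ * x).1.1 = 1 := by change (p d)⁻¹ * _ = 1; rw [hd, inv_mul_cancel]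
    refine ⟨d, d.2, d.1⁻¹ * x, mem_center_iff.2 fun y => Subtype.ext (Prod.ext ?_ ?_), by group⟩
    · change y.1.1 * _ = _ * y.1.1
      rw [h1, mul_one, one_mul]
    · exact comm_two kg ((d.1⁻¹ * x).2.symm.trans ((congrArg f h1).trans f.map_one)) _
  obtain ⟨π, hπ⟩ := Schur.exists_surjective_ker hA (σ := f.comp p) ⟨sf.comp sp, ce, pD ▸ le_top⟩
  have zz : z * z = 1 := ((kf (z * z)).1 (by rw [map_mul, (kf z).2 (.inr rfl), mul_one])).resolve_right (by simpa using hz)
  have ww : w * w = 1 := ((kg (w * w)).1 (by rw [map_mul, (kg w).2 (.inr rfl), mul_one])).resolve_right (by simpa using hw)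
  have sq : ∀ d : (f.comp p).ker, d * d = 1 := fun d => Subtype.ext (ex _ _
    (by rcases (kf _).1 d.2 with e | e <;> simp [e, zz]) (by rcases (kg _).1 ((pr d).trans d.2) with e | e <;> simp [e, ww]))
  have ke : ∀ d, f (p d) = 1 → d = 1 ∨ d = π a := fun d hd => by
    obtain ⟨x, hx⟩ := hπ ⟨d, hd⟩
    obtain ⟨y, rfl | rfl⟩ := ha x
    · rw [map_mul, sq] at hx; exact .inl (congrArg Subtype.val hx).symm
    · rw [map_mul, map_mul, sq, mul_one] at hx; exact .inr (congrArg Subtype.val hx).symm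
  have ip : Function.Injective p := (injective_iff_map_eq_one _).2 fun d hd => (ke d (by rw [hd, map_one])).resolve_right fun e => by
    obtain ⟨d', rfl⟩ := sp z
    rcases ke d' ((kf _).2 (.inr rfl)) with e' | e'
    · exact hz (by rw [e', map_one])
    · exact hz (by rw [e', ← e, hd])
  have ir : Function.Injective r := (injective_iff_map_eq_one _).2 fun d hd => (ke d (by rw [← pr, hd, map_one])).resolve_right fun e => by
    obtain ⟨d', rfl⟩ := sr w
    rcases ke d' ((pr d').symm.trans ((kg _).2 (.inr rfl))) with e' | e'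
    · exact hw (by rw [e', map_one])
    · exact hw (by rw [e', ← e, hd])
  refine ⟨(MulEquiv.ofBijective p ⟨ip, sp⟩).symm.trans (MulEquiv.ofBijective r ⟨ir, sr⟩), fun l => ?_⟩
  obtain ⟨d, rfl⟩ := sp l
  exact (congrArg (fun x => g (r x)) ((MulEquiv.ofBijective p ⟨ip, sp⟩).symm_apply_apply d)).trans (pr d)

/-- extension of a homomorphism from a subgroup of index two with a complement -/
theorem ext2 {K Y N : Type*} [Group K] [Group Y] [Group N] (i : N →* K) (ii : Function.Injective i) (t : K) (tt : t * t = 1)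
    (ht : t ∉ i.range) (hN : ∀ g, g ∈ i.range ∨ g * t ∈ i.range) (f : N →* Y) (s : Y) (ss : s * s = 1)
    (h : ∀ n n', i n' = t * i n * t → f n' = s * f n * s) : ∃ ψ : K →* Y, (∀ n, ψ (i n) = f n) ∧ ψ t = s := by
  classical
  have dec : ∀ g, ∃ n, g = i n ∨ g = i n * t := fun g => (hN g).elim (fun ⟨n, e⟩ => ⟨n, .inl e.symm⟩)
    fun ⟨n, e⟩ => ⟨n, .inr (by rw [e, mul_assoc, tt, mul_one])⟩
  have ne : ∀ n n', i n * t ≠ i n' := fun n n' e => ht ⟨n⁻¹ * n', by rw [map_mul, map_inv, ← e, inv_mul_cancel_left]⟩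
  have cj : ∀ n, ∃ n', i n' = t * i n * t := fun n => by
    obtain ⟨n', e | e⟩ := dec (t * i n)
    · obtain ⟨m, e' | e'⟩ := dec (t * i n * t)
      · exact ⟨m, e'.symm⟩
      · exact absurd ⟨n' * n⁻¹, by rw [map_mul, map_inv, ← e, mul_inv_cancel_right]⟩ ht
    · exact ⟨n', by rw [e, mul_assoc, tt, mul_one]⟩
  let F : K → Y := fun g => if g ∈ i.range then f (Function.invFun i g) else f (Function.invFun i (g * t)) * s
  have F1 : ∀ n, F (i n) = f n := fun n => by
    simp only [F]; rw [if_pos ⟨n, rfl⟩, Function.leftInverse_invFun ii]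
  have F2 : ∀ n, F (i n * t) = f n * s := fun n => by
    simp only [F]; rw [if_neg fun ⟨n', e⟩ => ne _ _ e.symm, mul_assoc, tt, mul_one, Function.leftInverse_invFun ii]
  refine ⟨MonoidHom.mk' F fun a b => ?_, F1, by simpa using F2 1⟩
  obtain ⟨n, rfl | rfl⟩ := dec a <;> obtain ⟨m, rfl | rfl⟩ := dec b
  · rw [← map_mul, F1, F1, F1, map_mul]
  · rw [← mul_assoc, ← map_mul, F2, F1, F2, map_mul, mul_assoc]
  · obtain ⟨m', e⟩ := cj m
    rw [show i n * t * i m = i (n * m') * t by rw [map_mul, e]; simp only [mul_assoc, tt, mul_one], F2, F2, F1, map_mul, h _ _ e]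
    simp only [mul_assoc, ss, mul_one]
  · obtain ⟨m', e⟩ := cj m
    rw [show i n * t * (i m * t) = i (n * m') by rw [map_mul, e]; simp only [mul_assoc], F1, F2, F2, map_mul, h _ _ e]
    simp only [mul_assoc]

theorem odd_or {Y : Type*} [Group Y] [Finite Y] (L : Subgroup Y) [L.Normal] {k : ℕ} (hk : Odd k) (idx : L.index = 2 * k)
    {t : Y} (tt : t * t = 1) (ht : t ∉ L) (x : Y) : x ^ k ∈ L ∨ (t * x) ^ k ∈ L := by
  have c : Nat.card (Y ⧸ L) = 2 * k := idx
  obtain ⟨T⟩ : Nonempty (Sylow 2 (Y ⧸ L)) := inferInstance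
  have cT : Nat.card T = 2 := by
    rw [T.card_eq_multiplicity, c, Nat.factorization_mul (by decide) hk.pos.ne', Finsupp.add_apply,
      Nat.factorization_eq_zero_of_not_dvd hk.not_two_dvd_nat, Nat.prime_two.factorization_self]; rfl
  obtain ⟨H, hH⟩ := Inv.exists_index_two_of_isCyclic (c ▸ even_two_mul k) T (isCyclic_of_prime_card cT)
  have cH : Nat.card H = k := by have := H.card_mul_index; rw [hH, c] at this; omega
  have pw : ∀ y : Y, (y : Y ⧸ L) ∈ H → y ^ k ∈ L := fun y hy => by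
    rw [← QuotientGroup.eq_one_iff, QuotientGroup.mk_pow, ← cH]
    exact congrArg Subtype.val (pow_card_eq_one' (x := (⟨_, hy⟩ : H)))
  have tH : (t : Y ⧸ L) ∉ H := fun h => ht (by
    obtain ⟨j, rfl⟩ := hk
    simpa [pow_succ, pow_mul, pow_two, tt] using pw t h)
  by_cases hx : (x : Y ⧸ L) ∈ H
  · exact .inl (pw x hx)
  · exact .inr (pw _ (by rw [QuotientGroup.mk_mul, mul_mem_iff_of_index_two hH]; exact iff_of_false tH hx))

/-- a three-cycle -/
def c3 (t : Fin 6 × Fin 6 × Fin 6) : Perm (Fin 6) := swap t.1 t.2.1 * swap t.2.1 t.2.2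

/-- code of a sign vector -/
def cd (s : Fin 6 → ℤˣ) : ℕ := ∑ i, if s i = 1 then 2 ^ i.1 else 0

theorem chars_dec : ∀ c : Fin 6 → ℤˣ, (∀ i k, c i * c k = 1) ∨ (∃ i, ∀ k, c k * c i = if k = i then 1 else -1) ∨
    7 ≤ ((Finset.univ.filter fun t : Fin 6 × Fin 6 × Fin 6 => t.1 < t.2.1 ∧ t.1 < t.2.2 ∧ t.2.1 ≠ t.2.2).image
      fun t => cd fun i => c (c3 t 0) * c (c3 t i)).card := by decide +kernel

theorem chars (c : Fin 6 → Fin 6 → ℤˣ) (h : ∀ j, ∀ π : Perm (Fin 6), Perm.sign π = 1 → ∃ j', ∀ i k, c j' i * c j' k = c j (π i) * c j (π k))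
    (j : Fin 6) : (∀ i k, c j i * c j k = 1) ∨ ∃ i, ∀ k, c j k * c j i = if k = i then 1 else -1 := by
  refine (or_assoc.2 (chars_dec (c j))).resolve_right (not_le.2 (Nat.lt_succ_of_le ?_))
  refine (Finset.card_le_card (t := Finset.univ.image fun j' => cd fun i => c j' 0 * c j' i) fun x hx => ?_).trans
    (Finset.card_image_le.trans (by simp))
  obtain ⟨t, ht, rfl⟩ := Finset.mem_image.1 hx
  obtain ⟨h1, -, h2⟩ := (Finset.mem_filter.1 ht).2
  obtain ⟨j', e⟩ := h j (c3 t) (by simp [c3, Perm.sign_swap h1.ne, Perm.sign_swap h2])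
  exact Finset.mem_image.2 ⟨j', Finset.mem_univ _, congrArg cd (funext fun i => e 0 i)⟩

end Cfsg.Lib.A12S.K2
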