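import Cfsg.Agent.Lib.A12S.K2a
import Cfsg.Agent.Lib.A12S.Ext

/-! # S3101 (K2b): the frame of `Ω₆` attached to the subgroup `2⁵` -/

set_option autoImplicit false
set_option linter.unusedSectionVars false

namespace Cfsg.Lib.A12S.K2

open Equiv Subgroup QuadraticMap Module Cfsg.Lib.Orth Cfsg.Lib.Orth.Gam

/-- the hypotheses of `pk_of_L` -/
structure Hy {Y : Type*} [Group Y] (L : Subgroup Y) (a : Fin 6 → Y) (z : Y) : Prop where
  h2 : ∀ i, a i * a i = 1
  hc : ∀ i k, a i * a k = a k * a i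
  hp : a 0 * a 1 * (a 2 * a 3) * (a 4 * a 5) = z
  n1 : a 0 * a 1 ≠ 1
  nz : a 0 * a 1 ≠ z
  hz : ∀ y, y * z = z * y
  hL : ∀ i k, a i * a k ∈ L
  h0 : a 0 ∉ L
  perf : commutator L = ⊤
  cen : ∀ y, (∀ l ∈ L, y * l = l * y) → y = 1 ∨ y = z
  perm : ∀ π : Perm (Fin 6), Perm.sign π = 1 → ∃ n : Y, ∀ i, n * a i * n⁻¹ = a (π i)

variable {F V : Type*} [Field F] [AddCommGroup V] [Module F V] {Q : QuadraticForm F V}

/-- type of a character -/
def Ty (c : Fin 6 → ℤˣ) (i : Fin 6) : Prop := ∀ k, c k * c i = if k = i then 1 else -1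

instance decTy (c : Fin 6 → ℤˣ) (i : Fin 6) : Decidable (Ty c i) := inferInstanceAs (Decidable (∀ _, _))

theorem ty_dec : ∀ c l, Ty c l → c 0 * c 1 * (c 2 * c 3) * (c 4 * c 5) = -1 ∧ (∀ l', Ty c l' → l = l') ∧
    ∀ i k, c i * c k = ms i l * ms k l := by decide +kernel

theorem exists_even : ∀ i j : Fin 6, ∃ t : Fin 6 × Fin 6 × Fin 6, t.1 ≠ t.2.1 ∧ t.2.1 ≠ t.2.2 ∧ c3 t i = j := by decide +kernel

theorem sign_c3 {t : Fin 6 × Fin 6 × Fin 6} (h1 : t.1 ≠ t.2.1) (h2 : t.2.1 ≠ t.2.2) : Perm.sign (c3 t) = 1 := by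
  simp [c3, Perm.sign_swap h1, Perm.sign_swap h2]

variable [Finite F] [FiniteDimensional F V] {Y : Type*} [Group Y] {L : Subgroup Y} [L.Normal] {a : Fin 6 → Y} {z : Y} (H : Hy L a z)
include H

/-- the elements `a i * a k` of `L` -/
def Hy.p (i k : Fin 6) : L := ⟨a i * a k, H.hL i k⟩

theorem Hy.p_eq (i k : Fin 6) : H.p i k = H.p 0 i * H.p 0 k := Subtype.ext (by
  change _ = a 0 * a i * (a 0 * a k)
  rw [H.hc 0 i, mul_assoc, ← mul_assoc (a 0), H.h2, one_mul]; rfl)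

theorem Hy.act (hQ : ND Q) (h2 : (2 : F) ≠ 0) (h6 : finrank F V = 6) (θ : L →* commutator (O Q)) (sj : Function.Surjective θ)
    (kz : ∀ l, θ l ∈ center _ ↔ (l : Y) = 1 ∨ (l : Y) = z) (n : Y) :
    ∃ γ : Gam Q, ∀ l l' : L, (l' : Y) = n * l * n⁻¹ → (θ l').1 = cj Q γ (θ l) := by
  obtain ⟨γ, h⟩ := exists_gam hQ (by omega) (surj6 hQ h2 h6) θ sj H.perf (MulAut.conjNormal n) fun l => by
    rw [kz, kz, MulAut.conjNormal_apply, conj_eq_one_iff, mul_inv_eq_iff_eq_mul, ← H.hz, mul_right_inj]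
  exact ⟨γ, fun l l' e => by rw [← h]; exact congrArg (fun x => (θ x).1) (Subtype.ext e)⟩

theorem Hy.frame (hQ : ND Q) (h2 : (2 : F) ≠ 0) (h6 : finrank F V = 6) (θ : L →* commutator (O Q)) (sj : Function.Surjective θ)
    (kz : ∀ l, θ l ∈ center _ ↔ (l : Y) = 1 ∨ (l : Y) = z) : O.neg Q ∈ commutator (O Q) ∧ Function.Injective θ ∧
      ∃ θ' : L ≃* commutator (O (QI F 6)), ∀ i k, (θ' (H.p i k)).1 = SI F 6 (ms i * ms k) := by
  have hE := not_exc_of_two_ne_zero (Q := Q) h2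
  let θ₀ := (commutator (O Q)).subtype.comp θ
  let S := closure (Set.range fun i => H.p 0 i)
  have cm : IsMulCommutative S := isMulCommutative_closure (by
    rintro _ ⟨i, rfl⟩ _ ⟨k, rfl⟩
    rw [← H.p_eq, ← H.p_eq]; exact Subtype.ext (H.hc i k))
  obtain ⟨v, v1, v2, v3⟩ := exists_common_orth h2 (H := S) (fun x y => mul_comm' x y) (fun ⟨x, hx⟩ => Subtype.ext (by
    induction hx using closure_induction with
    | mem x hx => obtain ⟨i, rfl⟩ := hx; exact (H.p_eq i i).symm.trans (Subtype.ext (H.h2 i))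
    | one => simp
    | mul x y hx hy e1 e2 =>
      have := congrArg Subtype.val (mul_comm' (⟨x, hx⟩ : S) ⟨y, hy⟩)
      simp only [MulMemClass.coe_mul, OneMemClass.coe_one] at *
      rw [mul_assoc, ← mul_assoc y, ← this, mul_assoc, e2, mul_one, e1]
    | inv x hx e =>
      simp only [MulMemClass.coe_mul, OneMemClass.coe_one] at *
      rw [← mul_inv_rev, e, inv_one])) 6 hQ h6 (θ₀.comp S.subtype)
  let b := basisOfLinearIndependentOfCardEqFinrank' v (linearIndependent_of_orth h2 v1 v2) (by simp [h6])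
  have hb : ⇑b = v := coe_basisOfLinearIndependentOfCardEqFinrank' _ _ _
  rw [← hb] at v1 v2 v3
  choose ε hε using fun i => mem_range_signHom b v2 (v3 ⟨_, subset_closure ⟨i, rfl⟩⟩)
  have hp : ∀ i k, (θ (H.p i k)).1 = Orth.signHom b v2 (ε i * ε k) := fun i k => by rw [H.p_eq, map_mul, map_mul, hε, hε]; rfl
  have inv : ∀ j, ∀ π : Perm (Fin 6), Perm.sign π = 1 → ∃ j', ∀ i k, ε i j' * ε k j' = ε (π i) j * ε (π k) j := fun j π hπ => by
    obtain ⟨n, hn⟩ := H.perm π⁻¹ (by simp [hπ])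
    obtain ⟨γ, hγ⟩ := H.act hQ h2 h6 θ sj kz n
    obtain ⟨j', hj⟩ := exists_repr_ne b γ j
    refine ⟨j', fun i k => (eig b v2 h2 (ε := ε (π i) * ε (π k)) (δ := ε i * ε k) ?_ hj).symm⟩
    rw [← hp, ← hp, ← hγ _ (H.p i k)]
    change a i * a k = n * (a (π i) * a (π k)) * n⁻¹
    rw [← conj_mul, hn, hn]; simp
  have ch := chars (fun j i => ε i j) inv
  have hz : (H.p 0 1 * H.p 2 3 * H.p 4 5 : L).1 = z := H.hp
  have ez : (θ (H.p 0 1 * H.p 2 3 * H.p 4 5)).1 = Orth.signHom b v2 (ε 0 * ε 1 * (ε 2 * ε 3) * (ε 4 * ε 5)) := by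
    rw [map_mul θ, map_mul θ, MulMemClass.coe_mul, MulMemClass.coe_mul, hp, hp, hp, ← map_mul, ← map_mul]
  have en := ((mem_center_commutator_iff hQ hE (by omega)).1 ((kz _).2 (.inr hz))).resolve_left fun e => by
    have e1 := signHom_injective b v2 h2 (ez.symm.trans (e.trans (map_one _).symm))
    have : ε 0 * ε 1 = 1 := funext fun j => (ch j).elim (fun c => c 0 1) fun ⟨i, c⟩ =>
      absurd ((ty_dec _ i c).1.symm.trans (congrFun e1 j)) (show (-1 : ℤˣ) ≠ 1 by decide)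
    exact ((kz (H.p 0 1)).1 ((mem_center_commutator_iff hQ hE (by omega)).2 (.inl (by rw [hp, this, map_one])))).elim H.n1 H.nz
  have e1 := signHom_injective b v2 h2 (ez.symm.trans (en.trans (signHom_neg b v2).symm))
  have ty : ∀ j, ∃ i, Ty (fun i => ε i j) i := fun j => (ch j).resolve_left fun c => by
    have := congrFun e1 j
    simp only [Pi.mul_apply, c] at this
    exact absurd this (show (1 * 1 * 1 : ℤˣ) ≠ -1 by decide)
  have : Nontrivial V := Module.nontrivial_of_finrank_pos (R := F) (by omega)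
  have ij : Function.Injective θ := (injective_iff_map_eq_one _).2 fun l hl => ((kz l).1 (hl ▸ one_mem _)).elim (fun e => Subtype.ext e) fun e => by
    rw [← show l = _ from Subtype.ext (e.trans hz.symm), hl] at en
    exact absurd en.symm (neg_ne_one h2)
  refine ⟨en ▸ (θ _).2, ij, ?_⟩
  have ex : ∀ i, ∃ j, Ty (fun i => ε i j) i := fun i => by
    obtain ⟨i0, h0⟩ := ty 0
    obtain ⟨t, t1, t2, e⟩ := exists_even i i0
    obtain ⟨j, hj⟩ := inv 0 _ (sign_c3 t1 t2)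
    exact ⟨j, fun k => by rw [hj, e, h0, ← e]; simp⟩
  choose s hs using ex
  have si : Function.Injective s := fun i k e => (ty_dec _ _ (hs i)).2.1 _ (e ▸ hs k)
  let b1 := b.reindex (Equiv.ofBijective s si.bijective_of_finite).symm
  have eb : ∀ i, b1 i = b (s i) := fun i => by simp [b1]
  have o1 : ∀ i j, i ≠ j → polar Q (b1 i) (b1 j) = 0 := fun i j h => by rw [eb, eb, v2 _ _ (si.ne h)]
  have q1 : ∀ i, Q (b1 i) ≠ 0 := fun i => eb i ▸ v1 _
  have p1 : ∀ i k, (θ (H.p i k)).1 = refl Q (b1 i) * refl Q (b1 k) := fun i k => by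
    rw [← signHom_single b1 o1 (q1 i), ← signHom_single b1 o1 (q1 k), ← map_mul, hp]
    refine Subtype.ext (b1.ext' fun l => ?_)
    rw [Orth.signHom_apply, eb, Orth.signHom_apply]
    exact congrArg (fun u : ℤˣ => ((u : ℤ) : F) • b (s l)) ((ty_dec _ _ (hs l)).2.2 i k)
  have sq : ∀ i, ∃ t : Fˣ, Q (t • b1 i) = Q (b1 0) := fun i => by
    have := ((mem_commutator_iff hQ hE _).1 (θ (H.p i 0)).2).2
    rw [p1, map_mul, spinor_refl hQ (q1 _), spinor_refl hQ (q1 _), ← sqsign_mul (q1 _) (q1 _), sqsign_eq_one_iff] at this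
    obtain ⟨r, hr⟩ := this
    have r0 : r ≠ 0 := fun e => mul_ne_zero (q1 i) (q1 0) (by simpa [e] using hr)
    refine ⟨Units.mk0 (Q (b1 0) / r) (div_ne_zero (q1 0) r0), ?_⟩
    rw [Units.smul_def, Q_smul, Units.val_mk0]
    field_simp
    linear_combination (Q (b1 0)) * hr
  choose t ht using sq
  let b2 := b1.unitsSMul t
  have e2 : ∀ i, b2.equivFun (b2 i) = Pi.single i 1 := fun i => funext fun j => by simp [Pi.single_apply, eq_comm]
  have he : ∀ x, QI F 6 (b2.equivFun x) = (Q (b1 0))⁻¹ * Q x := fun x => by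
    rw [← isom_of_basis (Q' := qDiag fun _ => Q (b1 0)) b2 b2.equivFun.toLinearMap (fun i => by
      rw [LinearEquiv.coe_coe, e2, qDiag_single, Basis.unitsSMul_apply, ht]; simp) (fun i j h => by
      rw [LinearEquiv.coe_coe, e2, e2, polar_qDiag_single, Basis.unitsSMul_apply, Basis.unitsSMul_apply]
      simp [h, Units.smul_def, o1 i j h]) x, qDiag_apply, qDiag_apply, Finset.mul_sum]
    exact Finset.sum_congr rfl fun i _ => by rw [← mul_assoc, inv_mul_cancel₀ (q1 0)]; rfl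
  refine ⟨(MulEquiv.ofBijective θ ⟨ij, sj⟩).trans (commutatorCongr (O.congr b2.equivFun (inv_ne_zero (q1 0)) he)), fun i k => ?_⟩
  have r : ∀ i, O.congr b2.equivFun (inv_ne_zero (q1 0)) he (refl Q (b1 i)) = SI F 6 (ms i) := fun i => by
    rw [← refl_smul (t i).ne_zero, SI_ms, O.congr_refl, ← e2,
      Basis.unitsSMul_apply, Units.smul_def]
  change O.congr _ (inv_ne_zero (q1 0)) he (θ (H.p i k)).1 = _
  rw [p1, map_mul, r, r, map_mul]

end Cfsg.Lib.A12S.K2
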