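import Cfsg.Agent.Lib.A12S.K2b

/-! # S3101 (K2c): the package `Pk` from an isomorphism `L ≃ Ω₆` respecting the frame -/

set_option autoImplicit false
set_option linter.unusedSectionVars false

namespace Cfsg.Lib.A12S.K2

open Equiv hiding refl_apply conj_refl
open Subgroup QuadraticMap Module Cfsg.Lib.Orth Cfsg.Lib.Orth.Gam Cfsg.Lib.Orth.Mono7

theorem out_eq_of_odd {F V : Type*} [Field F] [AddCommGroup V] [Module F V] {Q : QuadraticForm F V} [Finite F] [FiniteDimensional F V]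
    (hQ : ND Q) (h2 : (2 : F) ≠ 0) (h6 : finrank F V = 6) (hn : O.neg Q ∈ commutator (O Q)) {γ φ : Gam Q} (e : γ.σ = φ.σ)
    (hc : mu Q φ = 1) {k : ℕ} (hk : Odd k) (h1 : out Q γ ^ k = 1) (h1' : out Q φ ^ k = 1) : out Q γ = out Q φ := by
  classical
  obtain ⟨x, x1, x2, x3⟩ := exists_centralizing_lift hQ h2 (h6 ▸ by decide) (by omega) hn hc h1'
  have key : ∀ ψ : Gam Q, ψ.σ = φ.σ → out Q ψ ^ k = 1 → out Q ψ = x := fun ψ e h => by
    have m : out Q ψ * x⁻¹ ∈ (GO Q).map (out Q) := ker_outFld (Q := Q) ▸ (by simp [MonoidHom.mem_ker, x1, e])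
    have p8 := congrArg Subtype.val (pow_card_eq_one' (x := (⟨_, m⟩ : (GO Q).map (out Q))))
    rw [Orth.card_map_mk', rel6 hQ h2 h6, if_pos hn] at p8
    have pk := (x3 _ m).mul_pow k
    rw [inv_mul_cancel_right, h, x2, mul_one] at pk
    exact mul_inv_eq_one.1 (orderOf_eq_one_iff.1 (Nat.eq_one_of_dvd_coprimes (Nat.Coprime.pow_left 3 (Nat.coprime_two_left.2 hk))
      (orderOf_dvd_of_pow_eq_one p8) (orderOf_dvd_of_pow_eq_one pk.symm)))
  rw [key γ e h1, key φ rfl h1']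

theorem eps_dec : ∀ ε : Fin 6 → ℤˣ, ε 1 = ε 2 → ε 2 = ε 3 → ε 3 = ε 4 → ε 4 = ε 5 →
    ε = 1 ∨ ε = -1 ∨ ε = ms 0 ∨ ε = -1 * ms 0 := by decide +kernel

variable {F : Type*} [Field F] [Finite F] {Y : Type*} [Group Y] {L : Subgroup Y} [L.Normal] {a : Fin 6 → Y} {z : Y} (H : Hy L a z)
  (h2 : (2 : F) ≠ 0) (θ : L ≃* commutator (O (QI F 6))) (hθ : ∀ i k, (θ (H.p i k)).1 = SI F 6 (ms i * ms k))
include H

theorem Hy.z_mem : z ∈ L := H.hp ▸ mul_mem (mul_mem (H.hL ..) (H.hL ..)) (H.hL ..)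

include h2 hθ

theorem Hy.θz : (θ ⟨z, H.z_mem⟩).1 = O.neg _ := by
  rw [show (⟨z, H.z_mem⟩ : L) = H.p 0 1 * H.p 2 3 * H.p 4 5 from Subtype.ext H.hp.symm, map_mul θ, map_mul θ, MulMemClass.coe_mul,
    MulMemClass.coe_mul, hθ, hθ, hθ, ← map_mul, ← map_mul, ← signHom_neg _ hoI]
  exact congrArg _ (by decide)

theorem Hy.act' (n : Y) : ∃ γ : Gam (QI F 6), ∀ l l' : L, (l' : Y) = n * l * n⁻¹ → (θ l').1 = cj _ γ (θ l) :=
  H.act (ndI h2) h2 (by simp) θ.toMonoidHom θ.surjective (fun l => by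
    rw [mem_center_commutator_iff (ndI h2) (not_exc_of_two_ne_zero h2) (by simp), ← H.θz h2 θ hθ]
    exact or_congr (by simp) (by simp [← Subtype.ext_iff, Subtype.ext_iff (a1 := l)])) n

omit h2 hθ in
theorem Hy.cen' {x : Y} (h : ∀ l l' : L, (l' : Y) = x * l * x⁻¹ → θ l' = θ l) : x = 1 ∨ x = z :=
  H.cen x fun l hl => mul_inv_eq_iff_eq_mul.1 (congrArg Subtype.val
    (θ.injective (h ⟨l, hl⟩ ⟨_, (inferInstance : L.Normal).conj_mem l hl x⟩ rfl)))

theorem Hy.a0 (ho : Odd (Nat.card (F ≃+* F))) (l l' : L) (e : (l' : Y) = a 0 * l * (a 0)⁻¹) :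
    (θ l').1 = SI F 6 (ms 0) * θ l * (SI F 6 (ms 0))⁻¹ := by
  have cj' : ∀ (l : L) (n : Y), n * l * n⁻¹ ∈ L := fun l n => (inferInstance : L.Normal).conj_mem l l.2 n
  obtain ⟨γ, hγ⟩ := H.act' h2 θ hθ (a 0)
  obtain ⟨ε, hε⟩ := diag h2 (by decide) (γ := γ) fun i k => by
    rw [← hθ, ← hγ _ (H.p i k)]
    change a i * a k = a 0 * (a i * a k) * _
    rw [← conj_mul, H.hc 0, H.hc 0]; simp
  obtain ⟨s, hs⟩ := scal_of_cj (ndI h2) h2 (by simp) (γ := γ * γ) fun o h => by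
    obtain ⟨l, hl⟩ := θ.surjective ⟨o, h⟩
    rw [map_mul, MulAut.mul_apply, show o = θ l from congrArg Subtype.val hl.symm, ← hγ l ⟨_, cj' l _⟩ rfl, ← hγ _ l]
    simp only [inv_eq_of_mul_eq_one_right (H.h2 0), ← mul_assoc, H.h2, one_mul]; rw [mul_assoc, H.h2, mul_one]
  have s1 : γ.σ = 1 := orderOf_eq_one_iff.1 (Nat.eq_one_of_dvd_coprimes (Nat.coprime_two_left.2 ho)
    (orderOf_dvd_of_pow_eq_one (by simpa [pow_two] using (congrArg Gam.σ hs).symm)) (orderOf_dvd_natCard _))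
  rw [s1, map_one, mul_one, cj_ofO] at hε
  simp only [hε, MulAut.conj_apply] at hγ
  have inv : ∀ π : Perm (Fin 6), Perm.sign π = 1 → π 0 = 0 → ∀ i, ε i = ε (π i) := fun π p1 p2 => by
    obtain ⟨n, hn⟩ := H.perm π p1
    obtain ⟨δ, hδ⟩ := H.act' h2 θ hθ n
    have sp := fun i j => supp h2 (by decide) (γ := δ) (π := π) (i := i) (j := j) fun i k => by
      rw [← hθ, ← hθ, ← hδ _ (H.p (π i) (π k))]
      change a (π i) * a (π k) = n * (a i * a k) * _
      rw [← conj_mul, hn, hn]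
    have c : (SI F 6 ε)⁻¹ * cj _ δ (SI F 6 ε) ∈ centralizer (commutator (O (QI F 6)) : Set (O (QI F 6))) := fun o h => by
      obtain ⟨l, hl⟩ := θ.surjective ⟨_, (δ⁻¹.cj_mem_commutator).2 h⟩
      have e1 := hδ _ ⟨_, cj' ⟨_, cj' l (a 0)⟩ n⟩ rfl
      rw [hγ l ⟨_, cj' l (a 0)⟩ rfl, hγ ⟨_, cj' l n⟩ _ (by
        have := hn 0
        rw [p2, mul_inv_eq_iff_eq_mul] at this
        simp only [← mul_assoc, this]; simp only [mul_assoc, ← mul_inv_rev, this]), hδ l ⟨_, cj' l n⟩ rfl, map_mul, map_mul, map_inv,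
        hl, ← MulAut.mul_apply, ← map_mul, mul_inv_cancel, map_one, MulAut.one_apply] at e1
      generalize cj _ δ (SI F 6 ε) = x at *
      generalize SI F 6 ε = y at *
      calc o * (y⁻¹ * x) = y⁻¹ * (y * o * y⁻¹) * x := by group
        _ = _ := by rw [e1]; group
    obtain ⟨η, hη⟩ : ∃ η : ℤˣ, cj _ δ (SI F 6 ε) = SI F 6 (ε * fun _ => η) := by
      rcases (mem_centralizer_commutator_iff (ndI h2) (not_exc_of_two_ne_zero h2) (by simp)).1 c with c | c
      · exact ⟨1, by rw [← inv_mul_eq_one.1 c]; exact congrArg _ (mul_one _).symm⟩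
      · exact ⟨-1, by rw [inv_mul_eq_iff_eq_mul.1 c, map_mul, ← signHom_neg _ hoI]; rfl⟩
    have k : ∀ i, ε i = ε (π i) * η := fun i => by
      obtain ⟨j, hj⟩ := exists_repr_ne (Pi.basisFun F _) δ i
      exact sp i j (by simpa using hj) ▸ eig _ hoI h2 hη hj
    have := k 0
    rw [p2, left_eq_mul] at this
    simpa [this] using k
  have i1 := inv (c3 (1, 2, 3)) (sign_c3 (by decide) (by decide)) (by decide)
  have i2 := inv (c3 (3, 4, 5)) (sign_c3 (by decide) (by decide)) (by decide)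
  have ne : ∀ x : O (QI F 6), O.neg _ * x = x * O.neg _ := fun x => (mem_center_iff.1 neg_mem_center x).symm
  have no : (∀ o, SI F 6 ε * o * (SI F 6 ε)⁻¹ = o) → False := fun h => H.h0 (by
    rcases H.cen' θ fun l l' e => Subtype.ext ((hγ l l' e).trans (h _)) with e | e <;> rw [e]
    exacts [one_mem _, H.z_mem])
  rcases eps_dec ε (i1 1) (i1 2) (i2 3) (i2 4) with rfl | rfl | rfl | rfl
  · exact (no (by simp)).elim
  · exact (no fun o => by rw [signHom_neg, ne, mul_inv_cancel_right]).elim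
  · exact hγ l l' e
  · rw [hγ l l' e, map_mul, signHom_neg, mul_assoc (O.neg _), ne _, ne (SI F 6 (ms 0))]; group

theorem Hy.odd {u : Y} {k : ℕ} (hk : Odd k) (hu : u ^ k ∈ L) : ∃ (l₀ : L) (σ : F ≃+* F), σ ^ k = 1 ∧
    ∀ l l' : L, (l' : Y) = (l₀⁻¹ * u) * l * (l₀⁻¹ * u)⁻¹ → (θ l').1 = cj _ (Φ F 6 σ) (θ l) := by
  have cj' : ∀ (l : L) (n : Y), n * l * n⁻¹ ∈ L := fun l n => (inferInstance : L.Normal).conj_mem l l.2 n
  obtain ⟨γ, hγ⟩ := H.act' h2 θ hθ u
  have pw : ∀ (j : ℕ) (l l' : L), (l' : Y) = u ^ j * l * (u ^ j)⁻¹ → (θ l').1 = cj _ (γ ^ j) (θ l) := fun j => by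
    induction j with
    | zero => intro l l' e; rw [show l' = l from Subtype.ext (by simpa using e)]; simp
    | succ j ih =>
      intro l l' e
      rw [pow_succ' γ, map_mul, MulAut.mul_apply, ← ih l ⟨_, cj' l _⟩ rfl, ← hγ _ l' (by rw [e, pow_succ']; group)]
  obtain ⟨s, hs⟩ := scal_of_cj (ndI h2) h2 (by simp) (γ := (ofO _ (θ ⟨_, hu⟩).1)⁻¹ * γ ^ k) fun o h => by
    obtain ⟨l, hl⟩ := θ.surjective ⟨o, h⟩
    rw [map_mul, MulAut.mul_apply, show o = θ l from congrArg Subtype.val hl.symm, ← pw k l (⟨_, hu⟩ * l * ⟨_, hu⟩⁻¹) rfl, ← map_inv,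
      cj_ofO]
    simp [mul_assoc]
  have s1 : γ.σ ^ k = 1 := by simpa [pow_σ] using (congrArg Gam.σ hs).symm
  have e := out_eq_of_odd (ndI h2) h2 (by simp) (H.θz h2 θ hθ ▸ (θ _).2) (γ := γ) (φ := Φ F 6 γ.σ) rfl (by simp [mu_apply]) hk
    (by rw [← map_pow, inv_mul_eq_iff_eq_mul.1 hs.symm, map_mul, out_scal, out_ofO_of_mem (θ _).2, one_mul])
    (by rw [← map_pow, ← map_pow, s1, map_one, map_one])
  obtain ⟨t, o, ho, e'⟩ := mem_ZOm.1 (out_eq_one.1 (show out _ (γ * (Φ F 6 γ.σ)⁻¹) = 1 by rw [map_mul, map_inv, e, mul_inv_cancel]))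
  obtain ⟨l₀, hl⟩ := θ.surjective ⟨o, ho⟩
  refine ⟨l₀, γ.σ, s1, fun l l' c => ?_⟩
  have := hγ l (l₀ * l' * l₀⁻¹) (by simp [c, mul_assoc])
  rw [mul_inv_eq_iff_eq_mul.1 e', map_mul (cj _), map_mul (cj _), cj_scal, one_mul, cj_ofO, map_mul, map_mul, map_inv, hl] at this
  simpa using this

omit H h2 hθ in
theorem not_six {k : Fin 7} (c : ¬ ∃ j : Fin 6, Fin.castSuccEmb j = k) : k = 6 := by revert k; decide

theorem Hy.pk [Finite Y] (hs : ¬ IsSquare (2 : F)) (ho : Odd (Nat.card (F ≃+* F))) {k : ℕ} (hk : Odd k) (idx : L.index = 2 * k)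
    (al : Fin 7 → Y) (h6 : al 6 = z) (ha : ∀ i, al i.castSucc = a i) : ∃ φ : CM F →* Y, Pk φ al := by
  have cj' : ∀ (l : L) (n : Y), n * l * n⁻¹ ∈ L := fun l n => (inferInstance : L.Normal).conj_mem l l.2 n
  let f : Fin 6 ↪ Fin 7 := Fin.castSuccEmb
  let i : L →* CM F := ((ext f).comp ((commutator _).subtype.comp θ.toMonoidHom)).codRestrict _ fun l =>
    ⟨(ext_mem f h2).2 (θ l).2, (comm_ao h2).2 (.inl (ext_single f _ (by decide)))⟩
  have ei : ∀ l, (i l).1 = ext f (θ l).1 := fun _ => rfl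
  have ii : Function.Injective i := fun l l' e => θ.injective (Subtype.ext (ext_injective f (congrArg Subtype.val e)))
  have am : ∀ j, ao F j ∈ CM F := fun j => ⟨(sp_mem h2 hs).2 ⟨flip_prod j, by simp⟩, mem_centralizer_singleton_iff.2 (by
    rw [ao, ao, sp_eq, sp_eq, ← map_mul, mul_comm, map_mul])⟩
  let t : CM F := ⟨_, am 0⟩
  have et : t.1 = SI F 7 (-1 * ms 0) := sp_eq _
  have tt : t * t = 1 := Subtype.ext (by rw [MulMemClass.coe_mul, et, SI_sq]; rfl)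
  have t6 : t.1.1 (Pi.single 6 1) = -Pi.single 6 1 := by
    rw [et, ← Pi.basisFun_apply, Orth.signHom_apply]; simp [Pi.mulSingle_eq_of_ne]
  have rg : ∀ g : CM F, g.1.1 (Pi.single 6 1) = Pi.single 6 1 → g ∈ i.range := fun g hg => by
    obtain ⟨o, e⟩ := exists_ext f h2 (y := g.1) fun k c => by rw [not_six c, hg]
    obtain ⟨l, hl⟩ := θ.surjective ⟨o, (ext_mem f h2).1 (e ▸ g.2.1)⟩
    exact ⟨l, Subtype.ext (by rw [ei, hl, e])⟩
  have tn : t ∉ i.range := fun ⟨l, e⟩ => h2 (by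
    have := congrFun ((ext_single f (θ l).1 (k := 6) (by decide)).symm.trans ((congrArg (fun x : CM F => x.1.1 _) e).trans t6)) 6
    simp only [Pi.neg_apply, Pi.single_eq_same] at this
    linear_combination this)
  have dec : ∀ g, g ∈ i.range ∨ g * t ∈ i.range := fun g => ((comm_ao h2).1 g.2.2).imp (rg g) fun e => rg _ (by
    rw [MulMemClass.coe_mul, O.mul_apply, t6, map_neg, e, neg_neg])
  have i0 := inv_eq_of_mul_eq_one_right (H.h2 0)
  obtain ⟨φ, p1, p2⟩ := ext2 i ii t tt tn dec L.subtype (a 0) (H.h2 0) fun l l' e => by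
    have : i ⟨_, cj' l (a 0)⟩ = t * i l * t := Subtype.ext (by
      rw [ei, H.a0 h2 θ hθ ho l _ rfl, ← inv_eq_of_mul_eq_one_right tt, inv_eq_of_mul_eq_one_right tt, MulMemClass.coe_mul,
        MulMemClass.coe_mul, et, ei]
      nth_rewrite 2 [← SI_inv (-1 * ms 0)]
      rw [SI_ext, show (-1 * ms 0 : Fin 7 → ℤˣ) ∘ f = -1 * ms 0 by decide, map_mul (SI F 6), signHom_neg,
        ← mem_center_iff.1 neg_mem_center, mul_assoc _ (O.neg _), ← mem_center_iff.1 neg_mem_center]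
      congr 1; group)
    rw [ii (e.trans this.symm)]; simp [i0]
  have dec' : ∀ g, ∃ l, g = i l ∨ g = i l * t := fun g => (dec g).elim (fun ⟨n, e⟩ => ⟨n, .inl e.symm⟩)
    fun ⟨n, e⟩ => ⟨n, .inr (by rw [e, mul_assoc, tt, mul_one])⟩
  have odd : ∀ u, u ^ k ∈ L → ∃ (m : CM F) (σ : F ≃+* F), ∀ y y' : CM F, FA σ y y' → u * φ y * u⁻¹ = φ (m * y' * m⁻¹) := fun u hu => by
    obtain ⟨l₀, σ, s1, h⟩ := H.odd h2 θ hθ hk hu
    generalize hx : (l₀ : Y)⁻¹ * u = x at h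
    have pw : ∀ (j : ℕ) (l l' : L), (l' : Y) = x ^ j * l * (x ^ j)⁻¹ → (θ l').1 = cj _ (Φ F 6 (σ ^ j)) (θ l) := fun j => by
      induction j with
      | zero => intro l l' e; rw [show l' = l from Subtype.ext (by simpa using e)]; simp
      | succ j ih =>
        intro l l' e
        rw [pow_succ' σ, map_mul, map_mul, MulAut.mul_apply, ← ih l ⟨_, cj' l _⟩ rfl, ← h _ l' (by rw [e, pow_succ']; group)]
    have xk := H.cen' θ fun l l' e => Subtype.ext ((pw k l l' e).trans (by rw [s1, map_one, map_one]; rfl))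
    have xa : x * a 0 * x⁻¹ = a 0 := by
      have := H.cen' θ (x := (a 0)⁻¹ * (x * a 0 * x⁻¹)) fun l l' e => by
        obtain ⟨l, rfl⟩ := (MulAut.conjNormal (H := L) x).surjective l
        refine Subtype.ext (mul_left_cancel (a := SI F 6 (ms 0)) (mul_right_cancel (b := (SI F 6 (ms 0))⁻¹) ?_))
        rw [← H.a0 h2 θ hθ ho l' ⟨_, cj' _ _⟩ rfl, h ⟨_, cj' l (a 0)⟩ _ (by simp [e, mul_assoc]), H.a0 h2 θ hθ ho l _ rfl, map_mul, map_mul,
          map_inv, Φ_SI, h l (MulAut.conjNormal x l) rfl]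
      rcases this with e | e
      · exact (inv_mul_eq_one.1 e).symm
      have pz : ∀ j : ℕ, x ^ j * a 0 * (x ^ j)⁻¹ = a 0 * z ^ j := fun j => by
        induction j with
        | zero => simp
        | succ j ih =>
          rw [pow_succ' x, mul_inv_rev, mul_assoc x, mul_assoc x, ← mul_assoc _ _ x⁻¹, ih, mul_assoc (a 0),
            ((show Commute x⁻¹ z from H.hz _).pow_right j).symm.eq, ← mul_assoc, ← mul_assoc, inv_mul_eq_iff_eq_mul.1 e,
            pow_succ', mul_assoc]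
      have zz : z * z = 1 := by
        have := congrArg (fun y => y * y) (inv_mul_eq_iff_eq_mul.1 e)
        simp only [conj_mul, H.h2, mul_one, mul_inv_cancel] at this
        rw [this, mul_assoc, ← mul_assoc z (a 0), ← H.hz (a 0), ← mul_assoc, ← mul_assoc, H.h2, one_mul]
      obtain ⟨j, rfl⟩ := hk
      have := pz (2 * j + 1)
      rw [pow_succ z, pow_mul z, pow_two, zz, one_pow, one_mul, ← inv_mul_eq_iff_eq_mul.1 e] at this
      rcases xk with c | c <;> rw [← this, c]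
      · simp
      · rw [← H.hz, mul_inv_cancel_right]
    refine ⟨i l₀, σ, fun y y' e => ?_⟩
    have key : ∀ l, cj _ (Φ F 7 σ) (i l).1 = (i ⟨_, cj' l x⟩).1 := fun l => by rw [ei, ei, Φ_ext, h l ⟨_, cj' l x⟩ rfl]
    rw [map_mul, map_mul, map_inv, p1, inv_mul_eq_iff_eq_mul.1 hx, show φ y' = x * φ y * x⁻¹ from ?_]
    · simp [mul_assoc]
    obtain ⟨l, rfl | rfl⟩ := dec' y
    · rw [show y' = _ from Subtype.ext ((FA_iff.1 e).symm.trans (key l)), p1, p1]; rfl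
    · rw [show y' = i ⟨_, cj' l x⟩ * t from Subtype.ext ((FA_iff.1 e).symm.trans (by
        rw [MulMemClass.coe_mul, MulMemClass.coe_mul, map_mul, key, et, Φ_SI])), map_mul, map_mul, p1, p1, p2, ← conj_mul, xa]; rfl
  refine ⟨φ, (injective_iff_map_eq_one _).2 fun g hg => ?_, fun j => ⟨am j, ?_⟩, fun x _ => ?_, fun x _ h => h6 ▸ H.cen x fun l hl => ?_⟩
  · obtain ⟨l, rfl | rfl⟩ := dec' g
    · rw [show l = 1 from Subtype.ext ((p1 l).symm.trans hg), map_one]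
    · rw [map_mul, p1, p2] at hg
      exact absurd (eq_inv_of_mul_eq_one_right hg ▸ inv_mem l.2) H.h0
  · induction j using Fin.lastCases with
    | last =>
      refine (congrArg φ (Subtype.ext ?_)).trans ((p1 ⟨z, H.z_mem⟩).trans h6.symm)
      rw [ei, H.θz h2 θ hθ, ← signHom_neg _ hoI, ext_SI]
      exact (sp_eq _).trans (congrArg _ (fext f (fun j => by rw [f.injective.extend_apply]; revert j; decide) fun k c => by
        rw [Function.extend_apply' _ _ _ c, not_six c]; decide))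
    | cast j =>
      rw [show (⟨_, am j.castSucc⟩ : CM F) = i (H.p j 0) * t from Subtype.ext (by
        rw [MulMemClass.coe_mul, ei, hθ, ext_SI, extend_ms, et, ← map_mul]
        exact (sp_eq _).trans (congrArg _ (by revert j; decide))), map_mul, p1, p2, ha]
      exact (mul_inv_cancel_right ..).symm.trans (by rw [i0]; rfl) |>.symm
  · rcases odd_or L hk idx (H.h2 0) H.h0 x with h | h
    · exact odd x h
    · obtain ⟨m, σ, e⟩ := odd _ h
      refine ⟨t * m, σ, fun y y' c => ?_⟩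
      rw [mul_inv_rev, ← mul_assoc, mul_assoc t, mul_assoc t, map_mul, map_mul, ← e y y' c, map_inv, p2, i0, mul_inv_rev, i0]
      simp only [← mul_assoc, H.h2, one_mul]
      rw [mul_assoc _ (a 0), H.h2, mul_one]
  · simpa [p1] using h (i ⟨l, hl⟩)

end Cfsg.Lib.A12S.K2
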