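import Cfsg.Agent.Lib.Orth.Mono7

/-!
# S3101: `Ω₇(q)` side (model free definitions).  See `docs/A12.md`.

`Om F = Ω₇(F)` for `Q7 = Σ xᵢ²`; `ao i = diag(-1, …, +1 (place i), …, -1)`; `CM F = C_Ω(ao 6)` is the stabilizer of the
line `⟨e₆⟩`.  `Pk φ al`: `φ` embeds `CM F` as a normal subgroup of `C(al 6)` on which `C(al 6)` induces inner times
field automorphisms.
-/

set_option autoImplicit false

namespace Cfsg.Lib.A12S

open Equiv Subgroup Cfsg.Lib.Orth Cfsg.Lib.Orth.Mono7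

variable (F : Type*) [Field F]

/-- `Ω₇(F)` -/
abbrev Om : Subgroup (O (Q7 F)) := commutator (O (Q7 F))

/-- the involution with `+1`-space `⟨eᵢ⟩` -/
def ao (i : Fin 7) : O (Q7 F) := sp F (-1 * Pi.mulSingle i (-1)) 1

/-- the centralizer of `ao 6` in `Ω₇(F)` -/
def CM : Subgroup (O (Q7 F)) := Om F ⊓ centralizer {ao F 6}

/-- the permutation matrix of `(0 1)(5 6)` -/
def sw : O (Q7 F) := sp F 1 (swap 0 1 * swap 5 6)

/-- the permutation matrix of the 3-cycle `6 ↦ 5 ↦ 4 ↦ 6` -/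
def r3 : O (Q7 F) := sp F 1 (swap 4 6 * swap 5 6)

variable {F}

/-- `y'` is the image of `y` under the field automorphism `σ` (applied to the entries) -/
def FA (σ : F ≃+* F) (y y' : O (Q7 F)) : Prop := ∀ v : Fin 7 → F, y'.1 (σ ∘ v) = σ ∘ y.1 v

/-- The package describing `C(al 6)`. -/
structure Pk {H : Type*} [Group H] (φ : CM F →* H) (al : Fin 7 → H) : Prop where
  inj : Function.Injective φ
  ao : ∀ i, ∃ h : ao F i ∈ CM F, φ ⟨ao F i, h⟩ = al i
  act : ∀ x ∈ centralizer {al 6}, ∃ (m : CM F) (σ : F ≃+* F), ∀ y y' : CM F, FA σ y y' →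
    x * φ y * x⁻¹ = φ (m * y' * m⁻¹)
  cen : ∀ x ∈ centralizer {al 6}, (∀ y, x * φ y = φ y * x) → x = 1 ∨ x = al 6

example : (swap 4 6 * swap 5 6 : Perm (Fin 7)) 6 = 5 ∧ (swap 4 6 * swap 5 6 : Perm (Fin 7)) 5 = 4 ∧
    (swap 4 6 * swap 5 6 : Perm (Fin 7)) 4 = 6 := by decide

end Cfsg.Lib.A12S
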