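import Cfsg.Agent.Lib.A12S.R1a

/-!
# S3101 (R1): `Ω₇(q)` is the universal completion of the amalgam of the `+`-point orthogonality graph.

The geometry is in `R1a`.  Vertices: `+`-points = lines `⟨v⟩`, `Q7 v` a nonzero square (e.g. model a
vertex as the `Submodule` or as the involution `a_v = -r_v ∈ Ω` under conjugation); edges: orthogonal pairs.
`x0 = ⟨e₆⟩`, `x1 = ⟨e₅⟩`, `x2 = ⟨e₄⟩`; `Stab_Ω(x0) = CM F`.
1. `Ω` is transitive on ordered orthogonal triples of `+`-points (Witt `Orth.Witt`; correct det and spinor norm by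
   `O₄` of the complement), so `M3.Adj Ω x0 x1 x y ↔ x ⊥ y`, and every triangle is `g • (x0, x1, r3 • x1)`.
2. `Γ := closure ({(y, φ y)} ∪ {(sw, s)}) ≤ O × G`, `H = graph φ`, first projection: `M3.Amal`
   (`sq` = `h1`, `nor` = `h2`); `Amal.lifts` with `ρ = (r3, s * φ (sw⁻¹ r3))` (`h3`) gives `Cov.Tri`.
3. `M3.Morse` with height `0` at `x0`, `1` on `x0^⊥`, `2` else.  A quadratic space of rank `≥ 2` over a finite field
   represents every nonzero scalar.  `tri` (height 2): `⟨x0, v, w⟩^⊥` has dim `≥ 4`, radical `≤ 1`.  `con` (height 2):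
   two common neighbours `u, w` of `x0, v` have a common neighbour in `⟨x0, v, u, w⟩^⊥` (dim `≥ 3`): its rank is `≥ 2`
   unless both `⟨x0, v⟩` and `⟨u, w⟩` are degenerate; then `V = x0 ⊥ u ⊥ H ⊥ H' ⊥ ⟨t⟩` and the discriminant
   (Gram determinant, `(-1)² Q t`) shows that `Q t` is a square.
4. `Cov.morse` gives a section, hence the first projection `Γ → Ω` is bijective (see `Amal.injective`/`le_range` or do
   it directly: the section through `1·H` is `Γ`-equivariant by connectivity); `Φ` = second projection.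
-/

set_option autoImplicit false

namespace Cfsg.Lib.A12S

open Equiv Subgroup Cfsg.Lib.Orth Cfsg.Lib.Orth.Mono7

theorem two_facts {F : Type*} [Field F] [Fintype F] (hq : Fintype.card F % 8 = 3 ∨ Fintype.card F % 8 = 5) :
    (2 : F) ≠ 0 ∧ ¬ IsSquare (2 : F) :=
  have : ¬ IsSquare (2 : F) := by rw [FiniteField.isSquare_two_iff]; omega
  ⟨ne_zero_of_not_isSquare this, this⟩

open K2 R1 Pointwise in
theorem univ7 {F : Type*} [Field F] [Fintype F] (hq : Fintype.card F % 8 = 3 ∨ Fintype.card F % 8 = 5)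
    {G : Type*} [Group G] (φ : CM F →* G) (s : G) (h1 : s * s = 1)
    (h2 : ∀ y y' : CM F, (y' : O (Q7 F)) = sw F * y * (sw F)⁻¹ → φ y' = s * φ y * s⁻¹)
    (h3 : ∀ y : CM F, sw F * y = r3 F → (s * φ y) ^ 3 = 1) :
    ∃ Φ : Om F →* G, (∀ y : CM F, Φ ⟨y, y.2.1⟩ = φ y) ∧ (∀ h, Φ ⟨sw F, h⟩ = s) ∧
      Φ.range = φ.range ⊔ zpowers s := by
  classical
  obtain ⟨t2, hs⟩ := two_facts hq
  have cm : ∀ {y : O (Q7 F)}, y ∈ CM F ↔ y ∈ Om F ∧ y • pt (Pi.single 6 (1 : F)) = pt (Pi.single 6 (1 : F)) := fun {y} =>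
    and_congr_right fun _ => (comm_ao t2).trans (by rw [smul_pt, pt_eq])
  have m1 : sw F ∈ Om F := (sp_mem t2 hs).2 ⟨by simp, by simp [Perm.sign_swap']⟩
  have m3 : r3 F ∈ Om F := (sp_mem t2 hs).2 ⟨by simp, by simp [Perm.sign_swap']⟩
  have p1 : ∀ π i, sp F 1 π • pt (Pi.single i (1 : F)) = pt (Pi.single (π i) (1 : F)) := fun π i => by rw [smul_pt, sp_single]; simp
  have s0 : sw F • pt (Pi.single 6 (1 : F)) = pt (Pi.single 5 (1 : F)) := p1 _ _
  have ss : sw F * sw F = 1 := by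
    rw [sw, sp_mul, act_one, mul_one, show (swap 0 1 * swap 5 6 * (swap 0 1 * swap 5 6) : Perm (Fin 7)) = 1 by decide, sp_one]
  let H₀ := ((CM F).subtype.prod φ).range
  let Γ := H₀ ⊔ zpowers (sw F, s)
  let π : Γ →* O (Q7 F) := (MonoidHom.fst _ _).comp Γ.subtype
  let ι : CM F → Γ := fun y => ⟨(y, φ y), mem_sup_left ⟨y, rfl⟩⟩
  let σ : Γ := ⟨(sw F, s), mem_sup_right (mem_zpowers _)⟩
  have A : M3.Amal (Om F) (pt (Pi.single 6 (1 : F))) (pt (Pi.single 5 (1 : F))) π (H₀.subgroupOf Γ) σ :=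
    { mem := fun γ => (show Γ ≤ (Om F).comap (MonoidHom.fst _ _) from sup_le (by rintro _ ⟨y, rfl⟩; exact y.2.1) (zpowers_le.2 m1)) γ.2
      fix := fun h ⟨y, e⟩ => by rw [← show (y : O (Q7 F)) = π h from congrArg Prod.fst e]; exact (cm.1 y.2).2
      sur := fun g hg e => ⟨ι ⟨g, cm.2 ⟨hg, e⟩⟩, ⟨⟨g, cm.2 ⟨hg, e⟩⟩, rfl⟩, rfl⟩
      inj := fun h ⟨y, e⟩ e' => Subtype.ext (by
        rw [← show _ = h.1 from e, show y = 1 from Subtype.ext ((congrArg Prod.fst e).trans e'), map_one]; rfl)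
      s0 := s0
      sq := by rw [show σ * σ = 1 from Subtype.ext (Prod.ext ss h1)]; exact one_mem _
      nor := fun h ⟨y, e⟩ e' => by
        rw [← show (y : O (Q7 F)) = π h from congrArg Prod.fst e] at e'
        have m : (sw F)⁻¹ * y * sw F ∈ CM F := cm.2 ⟨mul_mem (mul_mem (inv_mem m1) y.2.1) m1, by
          rw [mul_smul, mul_smul, s0, e', ← s0, inv_smul_smul]⟩
        refine ⟨⟨_, m⟩, ?_⟩
        change _ = (sw F, s)⁻¹ * h.1 * (sw F, s)
        rw [← show _ = h.1 from e]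
        refine Prod.ext rfl ?_
        change φ _ = s⁻¹ * φ y * s
        rw [h2 ⟨_, m⟩ y (by simp [mul_assoc])]; group
      gen := map_injective Γ.subtype_injective (by
        rw [Subgroup.map_sup, map_subgroupOf_eq_of_le le_sup_left, MonoidHom.map_zpowers, ← MonoidHom.range_eq_map, range_subtype]; rfl) }
  have x0 : S (pt (Pi.single 6 (1 : F))) := ⟨_, QI_single _, rfl⟩
  have cn : M3.Conn (E F) S := (morse t2 hs x0).conn x0 fun y _ h => by
    rw [show y = pt (Pi.single 6 (1 : F)) by split_ifs at h <;> first | assumption | omega]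
  have P : M3.Patch (fun _ : PUnit.{1} => True) (fun _ _ => False) (fun _ => S) fun _ => E F :=
    ⟨False.elim, fun _ _ => cn, fun _ _ _ _ => False.elim, fun _ _ _ _ => False.elim, fun _ _ _ _ _ _ => False.elim⟩
  have eP : ∀ g ∈ Om F, ∀ (_ : PUnit.{1}) (x : Set (Fin 7 → F)), S x → S (g • x) := by
    rintro g - - _ ⟨v, hv, rfl⟩; exact ⟨_, (O.map_Q g v).trans hv, smul_pt ..⟩
  have my : (sw F)⁻¹ * r3 F ∈ CM F := cm.2 ⟨mul_mem (inv_mem m1) m3, by rw [mul_smul, inv_smul_eq_iff, s0]; exact p1 _ _⟩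
  have T : A.cov.Tri S := by
    rintro _ _ _ ⟨u, hu, rfl⟩ ⟨v, hv, rfl⟩ ⟨w, hw, rfl⟩ e1 e2 e3
    obtain ⟨g, hg, rfl, rfl, rfl⟩ := tr3 t2 hs hu hv hw ((E_iff t2 hs hu hv).1 e1) ((E_iff t2 hs hu hw).1 e2) ((E_iff t2 hs hv hw).1 e3)
    have := A.lifts (ρ := σ * ι ⟨_, my⟩) (by rw [inv_mul_cancel_left]; exact ⟨⟨_, my⟩, rfl⟩) (by
      rw [show (σ * ι ⟨_, my⟩) ^ 3 = 1 from Subtype.ext (Prod.ext ?_ (h3 ⟨_, my⟩ (mul_inv_cancel_left ..)))]
      · exact one_mem _
      change (sw F * ((sw F)⁻¹ * r3 F)) ^ 3 = 1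
      rw [mul_inv_cancel_left, pow_three, r3, sp_mul, sp_mul, act_one, mul_one, act_one, mul_one, ← sp_one]
      exact congrArg _ (by decide)) hg
    rw [show π (σ * ι ⟨_, my⟩) = r3 F from mul_inv_cancel_left .., r3, p1, smul_pt, smul_pt, smul_pt] at this
    exact this
  have ij := A.injective P (fun _ _ _ _ => .refl) (z0 := PUnit.unit) trivial x0 (fun _ _ _ => id) eP (fun _ _ _ _ => id)
    (fun g hg _ x y ⟨k, hk, e1, e2⟩ => ⟨g * k, mul_mem hg hk, by rw [mul_smul, e1], by rw [mul_smul, e2]⟩) ⟨_, QI_single _, rfl⟩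
    (E_symm t2 hs ⟨1, one_mem _, one_smul .., one_smul ..⟩) (fun _ _ a ha => by
      obtain ⟨D, h, h'⟩ := M3.Cov.exists_sheet (C := A.cov) (f := id) (morse t2 hs ha) (fun _ _ => id) (fun _ _ _ _ => id) T rfl ha
        (fun x _ => by split_ifs <;> simp [*]) (E_irr t2 hs)
      exact ⟨D, ⟨fun b hb => (h.mem b hb).elim fun r c => c.2 ▸ c.1, fun x hx => h.ex x ⟨x, hx, rfl⟩, h.inj,
        fun b hb c hc e => h.rel b hb c hc ⟨_, _, (E_S e).1, (E_S e).2, e, rfl, rfl⟩⟩, h'⟩)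
    (ht := fun _ => 0) ⟨False.elim, ⟨1, by simp⟩, by simp, by simp⟩ (by simp [x0])
  have sj := A.le_range P (fun _ _ _ _ => .refl) (z0 := PUnit.unit) trivial x0 (fun _ _ _ => id) eP fun _ _ _ => id
  let e := MulEquiv.ofBijective (π.codRestrict _ A.mem) ⟨fun a b c => ij (congrArg Subtype.val c),
    fun g => (sj g.2).imp fun _ c => Subtype.ext c⟩
  refine ⟨((MonoidHom.snd _ _).comp Γ.subtype).comp e.symm.toMonoidHom,
    fun y => congrArg (fun γ : Γ => γ.1.2) (e.symm_apply_apply (ι y)), fun _ => congrArg (fun γ : Γ => γ.1.2) (e.symm_apply_apply σ), ?_⟩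
  rw [MonoidHom.range_comp, MonoidHom.range_eq_top.2 e.symm.surjective, ← MonoidHom.range_eq_map, MonoidHom.range_comp, range_subtype,
    Subgroup.map_sup, MonoidHom.map_zpowers, ← MonoidHom.range_comp]
  rfl

end Cfsg.Lib.A12S
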