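import Cfsg.Agent.Lib.A12S.Ext
import Cfsg.Agent.Lib.M3.Cover

/-! # S3101 (R1a): the orthogonality graph on the `+`-points of `O₇(q)` -/

set_option autoImplicit false
set_option linter.unusedSectionVars false

namespace Cfsg.Lib.A12S.R1

open Equiv hiding refl_apply conj_refl
open Subgroup QuadraticMap Module Cfsg.Lib.Orth Cfsg.Lib.Orth.Mono7 Cfsg.Lib.A12S.K2 Pointwise Relation

variable {F : Type*} [Field F] [Finite F]

theorem unit4 {V : Type*} [AddCommGroup V] [Module F V] [FiniteDimensional F V] {Q : QuadraticForm F V} (hQ : ND Q) (h2 : (2 : F) ≠ 0)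
    (hn : 4 ≤ finrank F V) (b : V) : ∃ t, Q t = 1 ∧ polar Q b t = 0 := by
  by_cases h0 : b = 0
  · exact (exists_Q_eq hQ (by omega) 1).imp fun t h => ⟨h, by simp [h0]⟩
  by_cases hb : Q b = 0
  · obtain ⟨f, h⟩ := exists_isHyp hQ hb h0
    obtain ⟨t, ht⟩ := exists_Q_eq (h.nd_hperp hQ) (by have := h.finrank_hperp hQ; omega) 1
    exact ⟨t, ht, (mem_hperp.1 t.2).1⟩
  · obtain ⟨t, ht⟩ := exists_Q_eq (nd_perp_singleton hQ h2 hb) (by have := finrank_perp_singleton hQ h0; omega) 1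
    exact ⟨t, ht, mem_perp_singleton.1 t.2⟩

theorem unit5 (h2 : (2 : F) ≠ 0) {a b : Fin 5 → F} (h : polar (QI F 5) a b = 0) :
    ∃ t, QI F 5 t = 1 ∧ polar (QI F 5) a t = 0 ∧ polar (QI F 5) b t = 0 := by
  have key : ∀ {a b : Fin 5 → F}, polar (QI F 5) a b = 0 → QI F 5 a ≠ 0 →
      ∃ t, QI F 5 t = 1 ∧ polar (QI F 5) a t = 0 ∧ polar (QI F 5) b t = 0 := fun {a b} h ha => by
    obtain ⟨t, h1, h3⟩ := unit4 (nd_perp_singleton (ndI h2) h2 ha) h2 (by
      have := finrank_perp_singleton (ndI h2) (ne_zero_of_Q_ne_zero ha); simp at this; omega) ⟨b, mem_perp_singleton.2 h⟩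
    exact ⟨t, h1, mem_perp_singleton.1 t.2, by simpa using h3⟩
  by_cases ha : QI F 5 a = 0
  swap
  · exact key h ha
  by_cases hb : QI F 5 b = 0
  swap
  · exact (key ((polar_comm _ _ _).trans h) hb).imp fun t h => ⟨h.1, h.2.2, h.2.1⟩
  obtain ⟨x, y, e⟩ := exists_sum_two_sq h2 one_ne_zero one_ne_zero (-1 : F)
  let w : Fin 2 → Fin 5 → F := ![![x, y, 1, 0, 0], ![y, -x, 0, 1, 0]]
  have li : LinearIndependent F w := Fintype.linearIndependent_iff.2 fun c hc i => by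
    have h1 := congrFun hc 2
    have h3 := congrFun hc 3
    fin_cases i <;> simp_all [w, Fin.sum_univ_succ]
  have ts : TS (QI F 5) (Submodule.span F (Set.range w)) := ts_span_range
    (fun i => by fin_cases i <;> simp [w, qDiag_apply, Fin.sum_univ_succ] <;> linear_combination e) fun i j => by
      rw [polar_qDiag]
      fin_cases i <;> fin_cases j <;> simp [w, Fin.sum_univ_succ] <;> first | linear_combination 2 * e | ring
  obtain ⟨X, h1, h3⟩ := exists_le_finrank_eq (Submodule.span F (Set.range w)) (k := finrank F (Submodule.span F {a, b})) (by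
    have := (ts_span_pair ha hb h).two_mul_finrank_le (ndI h2)
    rw [finrank_span_eq_card li]; simp at this ⊢; omega)
  obtain ⟨g, hg⟩ := (ts.mono h1).exists_map (ndI h2) (ts_span_pair ha hb h) h3
  have : ∀ c ∈ Submodule.span F {a, b}, polar (QI F 5) c (g.1 (Pi.single 4 1)) = 0 := fun c hc => by
    obtain ⟨d, hd, rfl⟩ := hg.ge hc
    rw [LinearEquiv.coe_coe, O.map_polar, polar_comm]
    exact mem_perp_singleton.1 ((Submodule.span_le (p := perp _ _)).2 (by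
      rintro _ ⟨i, rfl⟩; refine mem_perp_singleton.2 ?_; rw [polar_qDiag_single]; fin_cases i <;> simp [w]) (h1 hd))
  exact ⟨_, (O.map_Q g _).trans (QI_single 4), this _ (Submodule.subset_span (by simp)), this _ (Submodule.subset_span (by simp))⟩

theorem witt_on (h2 : (2 : F) ≠ 0) {k : ℕ} (e : Fin k ↪ Fin 7) {u : Fin k → Fin 7 → F} (h1 : ∀ i, Q7 F (u i) = 1)
    (h3 : ∀ i j, i ≠ j → polar (Q7 F) (u i) (u j) = 0) : ∃ g : O (Q7 F), ∀ i, g.1 (Pi.single (e i) 1) = u i := by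
  have o : ∀ i j, i ≠ j → polar (Q7 F) (Pi.single (e i) 1) (Pi.single (e j) 1) = 0 := fun i j h => by
    simp [polar_qDiag_single, h]
  exact witt_family (nd7 h2) (linearIndependent_of_orth h2 (fun i => (QI_single _).trans_ne one_ne_zero) o)
    (linearIndependent_of_orth h2 (fun i => (h1 i).trans_ne one_ne_zero) h3) (fun i => by rw [h1, QI_single]) fun i j h => by
      rw [o i j h, h3 i j h]

theorem unit7 (h2 : (2 : F) ≠ 0) {u x v y : Fin 7 → F} (hu : Q7 F u = 1) (hx : Q7 F x = 1) (h : polar (Q7 F) u x = 0)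
    (h' : y = 0 ∨ polar (Q7 F) x v = 0 ∧ polar (Q7 F) u y = 0 ∧ polar (Q7 F) v y = 0) : ∃ t, Q7 F t = 1 ∧ polar (Q7 F) u t = 0 ∧
      polar (Q7 F) x t = 0 ∧ polar (Q7 F) v t = 0 ∧ polar (Q7 F) y t = 0 := by
  obtain ⟨g, hg⟩ := witt_on h2 ⟨![6, 5], by decide⟩ (u := ![u, x]) (fun i => by fin_cases i <;> assumption) fun i j c => by
    fin_cases i <;> fin_cases j <;> simp_all [polar_comm _ x]
  obtain rfl : g.1 (Pi.single 6 1) = u := hg 0
  obtain rfl : g.1 (Pi.single 5 1) = x := hg 1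
  obtain ⟨v, rfl⟩ := g.1.surjective v
  obtain ⟨y, rfl⟩ := g.1.surjective y
  obtain ⟨t, h1, h3, h4⟩ := unit5 h2 (a := ![v 0, v 1, v 2, v 3, v 4]) (b := ![y 0, y 1, y 2, y 3, y 4]) (by
    rcases h' with c | ⟨c1, c2, c3⟩
    · simp [g.1.map_eq_zero_iff.1 c, polar_qDiag, Fin.sum_univ_succ]
    · simp only [O.map_polar, polar_qDiag_single, mul_one, mul_eq_zero, h2, false_or] at c1 c2 c3
      simpa [polar_qDiag, Fin.sum_univ_succ, c1, c2] using c3)
  refine ⟨g.1 ![t 0, t 1, t 2, t 3, t 4, 0, 0], ?_⟩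
  simp only [O.map_polar, O.map_Q, polar_qDiag_single]
  simp only [polar_qDiag, qDiag_apply, Fin.sum_univ_succ] at h1 h3 h4 ⊢
  simp at h1 h3 h4 ⊢
  exact ⟨h1, h3, h4⟩

variable (h2 : (2 : F) ≠ 0) (hs : ¬ IsSquare (2 : F))
include h2 hs

theorem tr3 {u v w : Fin 7 → F} (hu : Q7 F u = 1) (hv : Q7 F v = 1) (hw : Q7 F w = 1) (h1 : polar (Q7 F) u v = 0)
    (h3 : polar (Q7 F) u w = 0) (h4 : polar (Q7 F) v w = 0) :
    ∃ g ∈ Om F, g.1 (Pi.single 6 1) = u ∧ g.1 (Pi.single 5 1) = v ∧ g.1 (Pi.single 4 1) = w := by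
  obtain ⟨g, hg⟩ := witt_on h2 ⟨![6, 5, 4], by decide⟩ (u := ![u, v, w]) (fun i => by fin_cases i <;> assumption) fun i j c => by
    fin_cases i <;> fin_cases j <;> simp_all [polar_comm _ v u, polar_comm _ w]
  obtain ⟨c, c1, c2⟩ : ∃ c : O (Q7 F), dsHom (nd7 h2) c = dsHom (nd7 h2) g ∧ ∀ i : Fin 7, 2 ≤ i.1 → c.1 (Pi.single i 1) = Pi.single i 1 := by
    refine ⟨sp F (Pi.mulSingle 0 ((dsHom (nd7 h2) g).1 * (dsHom (nd7 h2) g).2)) 1 *
      sp F 1 (if (dsHom (nd7 h2) g).2 = 1 then 1 else swap 0 1), ?_, fun i hi => ?_⟩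
    · rw [map_mul, ds_sign h2, ds_perm h2 hs, Finset.prod_pi_mulSingle']
      generalize dsHom (nd7 h2) g = d
      revert d; decide
    · have h0 : i ≠ 0 := fun e => by simp [e] at hi
      have h0' : i ≠ 1 := fun e => by simp [e] at hi
      rw [O.mul_apply, sp_single]
      split_ifs <;> simp [sp_single, swap_apply_of_ne_of_ne h0 h0', Pi.mulSingle_eq_of_ne h0]
  refine ⟨g * c, ?_, ?_⟩
  · rw [Om, ← ker_dsHom (nd7 h2) (not_exc_of_two_ne_zero h2), MonoidHom.mem_ker, map_mul, c1]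
    exact Prod.ext (Int.units_mul_self _) (Int.units_mul_self _)
  · simp only [O.mul_apply, c2 6 (by decide), c2 5 (by decide), c2 4 (by decide)]
    exact ⟨hg 0, hg 1, hg 2⟩

omit h2 hs

/-- the point `± v` -/
def pt (v : Fin 7 → F) : Set (Fin 7 → F) := {v, -v}

theorem smul_pt (g : O (Q7 F)) (v : Fin 7 → F) : g • pt v = pt (g.1 v) := by
  simp [pt, Set.smul_set_insert, O.smul_def]

theorem pt_eq {v w : Fin 7 → F} : pt v = pt w ↔ v = w ∨ v = -w :=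
  ⟨fun h => h.le (Set.mem_insert ..), by rintro (rfl | rfl) <;> simp [pt, Set.pair_comm]⟩

/-- the vertices -/
def S (x : Set (Fin 7 → F)) : Prop := ∃ v, Q7 F v = 1 ∧ x = pt v

variable (F) in
/-- the edges -/
abbrev E : Set (Fin 7 → F) → Set (Fin 7 → F) → Prop := M3.Adj (Om F) (pt (Pi.single 6 1)) (pt (Pi.single 5 1))

theorem E_S {x y : Set (Fin 7 → F)} : E F x y → S x ∧ S y := by
  rintro ⟨g, -, rfl, rfl⟩
  exact ⟨⟨_, (O.map_Q g _).trans (QI_single _), smul_pt ..⟩, ⟨_, (O.map_Q g _).trans (QI_single _), smul_pt ..⟩⟩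

include h2 hs

theorem E_iff {v w : Fin 7 → F} (hv : Q7 F v = 1) (hw : Q7 F w = 1) : E F (pt v) (pt w) ↔ polar (Q7 F) v w = 0 := by
  refine ⟨fun ⟨g, _, h1, h3⟩ => ?_, fun h => ?_⟩
  · have := O.map_polar g (Pi.single 6 1) (Pi.single 5 1)
    rw [smul_pt, pt_eq] at h1 h3
    rcases h1 with h1 | h1 <;> rcases h3 with h3 | h3 <;> simpa [h1, h3, polar_qDiag_single] using this
  · obtain ⟨t, h1, h3, h4, -⟩ := unit7 h2 hv hw h (v := 0) (.inl rfl)
    obtain ⟨g, hg, h5, h6, -⟩ := tr3 h2 hs hv hw h1 h h3 h4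
    exact ⟨g, hg, by rw [smul_pt, h5], by rw [smul_pt, h6]⟩

theorem E_symm {x y : Set (Fin 7 → F)} (h : E F x y) : E F y x := by
  obtain ⟨⟨v, hv, rfl⟩, w, hw, rfl⟩ := E_S h
  rwa [E_iff h2 hs hw hv, polar_comm, ← E_iff h2 hs hv hw]

theorem E_irr {x : Set (Fin 7 → F)} (h : E F x x) : False := by
  obtain ⟨⟨v, hv, rfl⟩, -⟩ := E_S h
  rw [E_iff h2 hs hv hv, polar_self', hv, mul_one] at h
  exact h2 h

open Classical in
theorem morse {x₀ : Set (Fin 7 → F)} (h0 : S x₀) : M3.Morse (E F) S fun x => if x = x₀ then 0 else if E F x₀ x then 1 else 2 := by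
  have lt1 : ∀ {x}, (if x = x₀ then 0 else if E F x₀ x then 1 else 2) < 1 → x = x₀ := fun h => by
    split_ifs at h <;> first | assumption | omega
  have lt2 : ∀ {x v}, ¬ E F x₀ v → E F v x → ((if x = x₀ then 0 else if E F x₀ x then 1 else 2) < 2 ↔ E F x₀ x) := fun {x v} h h' => by
    rw [if_neg fun e : x = x₀ => h (E_symm h2 hs (e ▸ h'))]; split_ifs with c <;> simp [c]
  obtain ⟨u, hu, rfl⟩ := id h0
  refine ⟨E_symm h2 hs, ⟨3, fun x _ => by split_ifs <;> decide⟩, ?_, ?_⟩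
  · rintro _ ⟨v, hv, rfl⟩ h
    by_cases c : pt v = pt u
    · simp [c] at h
    by_cases c' : E F (pt u) (pt v)
    · simp only [if_neg c, if_pos c']
      exact ⟨pt u, ⟨h0, E_symm h2 hs c', by simp⟩, fun w hw => lt1 hw.2.2 ▸ .refl⟩
    simp only [if_neg c, if_neg c']
    obtain ⟨x', x1, x2⟩ := unit4 (nd7 h2) h2 (by simp) u
    obtain ⟨x, hx, x3, -, x4, -⟩ := unit7 h2 hu x1 x2 (v := v) (.inl rfl)
    have k : ∀ {x}, Q7 F x = 1 → polar (Q7 F) u x = 0 → polar (Q7 F) v x = 0 →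
        S (pt x) ∧ E F (pt v) (pt x) ∧ (if pt x = pt u then 0 else if E F (pt u) (pt x) then 1 else 2) < 2 := fun hx x3 x4 =>
      ⟨⟨_, hx, rfl⟩, (E_iff h2 hs hv hx).2 x4, (lt2 c' ((E_iff h2 hs hv hx).2 x4)).2 ((E_iff h2 hs hu hx).2 x3)⟩
    refine ⟨pt x, k hx x3 x4, ?_⟩
    rintro _ ⟨⟨y, hy, rfl⟩, y1, y2⟩
    obtain ⟨t, ht, t1, t2, t3, t4⟩ := unit7 h2 hu hx x3 (v := v) (y := y) (.inr ⟨(polar_comm _ _ _).trans x4,
      (E_iff h2 hs hu hy).1 ((lt2 c' y1).1 y2), (E_iff h2 hs hv hy).1 y1⟩)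
    exact .tail (.single ⟨k ht t1 t3, (E_iff h2 hs hx ht).2 t2⟩) ⟨⟨⟨_, hy, rfl⟩, y1, y2⟩, (E_iff h2 hs ht hy).2 ((polar_comm _ _ _).trans t4)⟩
  · rintro _ _ ⟨v, hv, rfl⟩ ⟨w, hw, rfl⟩ e h h'
    by_cases c : pt v = pt u
    · simp [c] at h'
    by_cases c' : E F (pt u) (pt v)
    · simp only [if_neg c, if_pos c'] at h ⊢
      refine ⟨pt u, ⟨h0, E_symm h2 hs c', by simp⟩, E_symm h2 hs ?_⟩
      split_ifs at h <;> first | assumption | omega
    simp only [if_neg c, if_neg c']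
    obtain ⟨t, ht, t1, t2, t3, -⟩ := unit7 h2 hv hw ((E_iff h2 hs hv hw).1 e) (v := u) (.inl rfl)
    exact ⟨pt t, ⟨⟨_, ht, rfl⟩, (E_iff h2 hs hv ht).2 t1, (lt2 c' ((E_iff h2 hs hv ht).2 t1)).2 ((E_iff h2 hs hu ht).2 t3)⟩,
      (E_iff h2 hs hw ht).2 t2⟩

end Cfsg.Lib.A12S.R1
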