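import Cfsg.Agent.Lib.A12S.Ext

/-! # S3101 (R2a): local structures at the seven involutions and their matching -/

set_option autoImplicit false
set_option linter.unusedSectionVars false

namespace Cfsg.Lib.A12S.R2

open Equiv hiding refl_apply conj_refl
open Subgroup QuadraticMap Module Cfsg.Lib.Orth Cfsg.Lib.Orth.Gam Cfsg.Lib.Orth.Mono7 Cfsg.Lib.A12S.K2 commutatorElement

variable {F : Type*} [Field F] [Finite F]

variable (F) in
/-- the centralizer of `ao i` in `Ω₇` -/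
def C (i : Fin 7) : Subgroup (O (Q7 F)) := Om F ⊓ centralizer {ao F i}

/-- field automorphisms -/
def fa : (F ≃+* F) →* MulAut (O (Q7 F)) := (cj _).comp (Φ F 7)

theorem fa_sp (σ : F ≃+* F) (ε : Fin 7 → ℤˣ) (π : Perm (Fin 7)) : fa σ (sp F ε π) = sp F ε π := Φ_sp σ ε π

theorem fa_comm (σ τ : F ≃+* F) (y : O (Q7 F)) : fa σ (fa τ y) = fa τ (fa σ y) := by
  rw [← MulAut.mul_apply, ← map_mul, mul_comm' σ, map_mul, MulAut.mul_apply]

theorem aut_mem {τ : MulAut (O (Q7 F))} {i j : Fin 7} (h : τ (ao F i) = ao F j) {y : O (Q7 F)} : τ y ∈ C F j ↔ y ∈ C F i :=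
  and_congr (mem_commutator_equiv τ) (mem_centralizer_singleton_iff.trans (.trans (by
    rw [← h, ← map_mul, ← map_mul, τ.apply_eq_iff_eq]) mem_centralizer_singleton_iff.symm))

theorem fa_mem {σ : F ≃+* F} {i : Fin 7} {y : O (Q7 F)} : fa σ y ∈ C F i ↔ y ∈ C F i := aut_mem (fa_sp ..)

theorem ao_comm (i k : Fin 7) : ao F k * ao F i = ao F i * ao F k := by rw [ao, ao, sp_eq, sp_eq, ← map_mul, mul_comm, map_mul]

theorem ao_sq (i : Fin 7) : ao F i * ao F i = 1 := by rw [ao, sp_eq, SI_sq]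

theorem ao_single (k i : Fin 7) : (ao F k).1 (Pi.single i 1) = if i = k then Pi.single i 1 else -Pi.single i 1 := by
  rw [ao, sp_eq, ← Pi.basisFun_apply, Orth.signHom_apply]
  split_ifs with h <;> simp [h]

theorem ao_mul (i k : Fin 7) : ao F i * ao F k = SI F 7 (ms i * ms k) := by
  rw [ao, ao, sp_eq, sp_eq, ← map_mul, mul_mul_mul_comm]; simp

theorem conj_ao (π : Perm (Fin 7)) (k : Fin 7) : MulAut.conj (sp F 1 π) (ao F k) = ao F (π k) :=
  (sp_conj ..).trans (by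
    rw [mul_one, mul_inv_cancel]
    exact congrArg (sp F · 1) (funext fun i => by simp [act, Pi.mulSingle_apply, Equiv.symm_apply_eq]))

/-- the twisting automorphisms -/
noncomputable def tw (ε : Fin 7 → ℤˣ) (σ : F ≃+* F) : MulAut (O (Q7 F)) := MulAut.conj (SI F 7 ε) * fa σ

theorem tw_apply (ε : Fin 7 → ℤˣ) (σ : F ≃+* F) (y : O (Q7 F)) : tw ε σ y = SI F 7 ε * fa σ y * (SI F 7 ε)⁻¹ := rfl

theorem tw_ao (ε : Fin 7 → ℤˣ) (σ : F ≃+* F) (k : Fin 7) : tw ε σ (ao F k) = ao F k := by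
  rw [tw_apply, ao, fa_sp, sp_eq, ← map_mul, mul_comm, map_mul, mul_inv_cancel_right]

theorem tw_fa (ε : Fin 7 → ℤˣ) (σ τ : F ≃+* F) (y : O (Q7 F)) : fa τ (tw ε σ y) = tw ε σ (fa τ y) := by
  rw [tw_apply, tw_apply, map_mul, map_mul, map_inv, ← sp_eq, fa_sp, fa_comm]

variable {G : Type*} [Group G] {al : Fin 7 → G}

/-- `φ` describes the centralizer of `al i` -/
structure Lc (al : Fin 7 → G) (i : Fin 7) (φ : O (Q7 F) → G) : Prop where
  mul : ∀ y ∈ C F i, ∀ y' ∈ C F i, φ (y * y') = φ y * φ y'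
  inj : ∀ y ∈ C F i, ∀ y' ∈ C F i, φ y = φ y' → y = y'
  ao : ∀ k, φ (ao F k) = al k
  dec : ∀ x, x * al i = al i * x → ∃ m ∈ C F i, ∃ σ u, x = φ m * u ∧ ∀ y ∈ C F i, u * φ y * u⁻¹ = φ (fa σ y)
  cen : ∀ x, (∀ y ∈ C F i, x * φ y = φ y * x) → x = 1 ∨ x = al i

variable {i j : Fin 7} {φ ψ : O (Q7 F) → G}

/-- the homomorphism -/
def Lc.hom (h : Lc al i φ) : C F i →* G := MonoidHom.mk' (fun y => φ y) fun a b => h.mul _ a.2 _ b.2

theorem Lc.one (h : Lc al i φ) : φ 1 = 1 := h.hom.map_one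

theorem Lc.inv (h : Lc al i φ) {y : O (Q7 F)} (hy : y ∈ C F i) : φ y⁻¹ = (φ y)⁻¹ := h.hom.map_inv ⟨y, hy⟩

theorem Lc.cj (h : Lc al i φ) {m y : O (Q7 F)} (hm : m ∈ C F i) (hy : y ∈ C F i) : φ (m * y * m⁻¹) = φ m * φ y * (φ m)⁻¹ := by
  rw [h.mul _ (mul_mem hm hy) _ (inv_mem hm), h.mul _ hm _ hy, h.inv hm]

theorem Lc.tr (h : Lc al i φ) (τ : MulAut (O (Q7 F))) (π : Perm (Fin 7)) (n : G) (h1 : ∀ k, τ (A12S.ao F k) = A12S.ao F (π k))
    (h2 : ∀ σ y, fa σ (τ y) = τ (fa σ y)) (h3 : ∀ k, n * al k * n⁻¹ = al (π k)) : Lc al (π i) fun y => n * φ (τ.symm y) * n⁻¹ := by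
  have m : ∀ {y}, y ∈ C F (π i) → τ.symm y ∈ C F i := fun hy => (aut_mem (h1 i)).1 (by simpa using hy)
  refine ⟨fun y hy y' hy' => by rw [map_mul, h.mul _ (m hy) _ (m hy'), conj_mul], fun y hy y' hy' e =>
    τ.symm.injective (h.inj _ (m hy) _ (m hy') (by simpa using e)), fun k => ?_, fun x hx => ?_, fun x hx => ?_⟩
  · obtain ⟨k, rfl⟩ := π.surjective k
    rw [← h1, τ.symm_apply_apply, h.ao, h3]
  · obtain ⟨a, ha, σ, u, e, hu⟩ := h.dec (n⁻¹ * x * n) (by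
      rw [← h3] at hx
      calc _ = n⁻¹ * (x * (n * al i * n⁻¹)) * n := by group
        _ = _ := by rw [hx]; group)
    refine ⟨τ a, (aut_mem (h1 i)).2 ha, σ, n * u * n⁻¹, by rw [τ.symm_apply_apply, conj_mul, ← e]; group, fun y hy => ?_⟩
    rw [show τ.symm (fa σ y) = fa σ (τ.symm y) from τ.symm_apply_eq.2 (by rw [← h2, τ.apply_symm_apply]), ← hu _ (m hy)]; group
  · refine (h.cen (n⁻¹ * x * n) fun y hy => ?_).imp (fun e => by simpa [mul_assoc, inv_mul_eq_one] using e) fun e => by rw [← h3, ← e]; group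
    have := hx (τ y) ((aut_mem (h1 i)).2 hy)
    rw [τ.symm_apply_apply] at this
    calc _ = n⁻¹ * (x * (n * φ y * n⁻¹)) * n := by group
      _ = _ := by rw [this]; group

variable (h2 : (2 : F) ≠ 0) (hs : ¬ IsSquare (2 : F))
include h2 hs

theorem ao_mem (i k : Fin 7) : ao F k ∈ C F i :=
  ⟨(sp_mem h2 hs).2 ⟨flip_prod k, by simp⟩, mem_centralizer_singleton_iff.2 (ao_comm ..)⟩

theorem Lc.comm (h : Lc al i φ) {x x' : G} (hx : x * al i = al i * x) (hx' : x' * al i = al i * x') : ∃ y ∈ C F i, ⁅x, x'⁆ = φ y := by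
  obtain ⟨m, hm, σ, u, rfl, hu⟩ := h.dec x hx
  obtain ⟨m', hm', σ', u', rfl, hu'⟩ := h.dec x' hx'
  obtain ⟨c, hc, e⟩ : ∃ c ∈ C F i, u * u' * (u' * u)⁻¹ = φ c := by
    refine (h.cen (u * u' * (u' * u)⁻¹) fun y hy => ?_).elim (fun e => ⟨1, one_mem _, e.trans h.one.symm⟩)
      fun e => ⟨_, ao_mem h2 hs i i, e.trans (h.ao i).symm⟩
    obtain ⟨y, rfl⟩ := (fa σ).surjective y
    obtain ⟨y, rfl⟩ := (fa σ').surjective y
    have hy' : y ∈ C F i := fa_mem.1 (fa_mem.1 hy)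
    have e1 := hu _ (fa_mem.1 hy)
    have e2 := hu' _ ((fa_mem (σ := σ)).2 hy')
    rw [← hu' _ hy'] at e1
    rw [← hu _ hy', fa_comm] at e2
    nth_rewrite 1 [← e2]
    rw [← e1]; group
  have b1 := (fa_mem (σ := σ)).2 hm'
  have b2 := (fa_mem (σ := σ')).2 hm
  have a1 := mul_mem hm b1
  have a2 := mul_mem hm' b2
  refine ⟨_, mul_mem (mul_mem a1 hc) (inv_mem a2), ?_⟩
  rw [h.mul _ (mul_mem a1 hc) _ (inv_mem a2), h.mul _ a1 _ hc, h.inv a2, h.mul _ hm _ b1, h.mul _ hm' _ b2,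
    ← hu _ hm', ← hu' _ hm, ← e, commutatorElement_def]; group

omit hs in
theorem ext_C {m : ℕ} (f : Fin m ↪ Fin 7) {k : O (QI F m)} (hk : k ∈ commutator _) (c : ¬ ∃ l, f l = i) : ext f k ∈ C F i :=
  ⟨(ext_mem f h2).2 hk, (comm_ao h2).2 (.inl (ext_single f _ c))⟩

variable (f : Fin 5 ↪ Fin 7) (hf : ∀ k, (¬ ∃ l, f l = k) ↔ k = i ∨ k = j)
include hf

omit hs in
theorem of_fix {y : O (Q7 F)} (hy : y ∈ Om F) (h1 : y.1 (Pi.single i 1) = Pi.single i 1) (h3 : y.1 (Pi.single j 1) = Pi.single j 1) :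
    ∃ k ∈ commutator (O (QI F 5)), ext f k = y := by
  obtain ⟨k, rfl⟩ := exists_ext f h2 (y := y) fun k c => by rcases (hf k).1 c with rfl | rfl <;> assumption
  exact ⟨k, (ext_mem f h2).1 hy, rfl⟩

theorem ind2 (hij : i ≠ j) {P : O (Q7 F) → Prop} (h1 : ∀ k ∈ commutator _, P (ext f k))
    (h3 : ∀ y ∈ C F i, y ∈ C F j → ∀ k, P y → P (y * ao F k)) : ∀ y ∈ C F i, y ∈ C F j → P y := by
  have a : ∀ y ∈ C F i, y ∈ C F j → ∀ k, P (y * ao F k) → P y := fun y hy hy' k h => by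
    simpa [mul_assoc, ao_sq] using h3 _ (mul_mem hy (ao_mem h2 hs _ k)) (mul_mem hy' (ao_mem h2 hs _ k)) k h
  have b : ∀ y ∈ C F i, y ∈ C F j → y.1 (Pi.single i 1) = Pi.single i 1 → P y := fun y hy hy' e => by
    rcases (comm_ao h2).1 hy'.2 with e' | e'
    · obtain ⟨k, hk, rfl⟩ := of_fix h2 f hf hy.1 e e'
      exact h1 k hk
    · obtain ⟨k, hk, c⟩ := of_fix h2 f hf (mul_mem hy (ao_mem h2 hs _ i)).1 (by simp [O.mul_apply, ao_single, e])
        (by simp [O.mul_apply, ao_single, e', hij.symm])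
      exact a y hy hy' i (c ▸ h1 k hk)
  intro y hy hy'
  rcases (comm_ao h2).1 hy.2 with e | e
  · exact b y hy hy' e
  · exact a y hy hy' j (b _ (mul_mem hy (ao_mem h2 hs _ j)) (mul_mem hy' (ao_mem h2 hs _ j)) (by simp [O.mul_apply, ao_single, e, hij]))

theorem Lc.mat (hij : i ≠ j) (h : Lc al i ψ) (h' : Lc al j φ) : ∃ ε σ, ∀ y ∈ C F i, y ∈ C F j → ψ y = φ (tw ε σ y) := by
  have : Finite (O (QI F 5)) := .of_injective _ (ofO_injective (Q := QI F 5))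
  have mi := fun k : commutator (O (QI F 5)) => ext_C h2 f k.2 ((hf i).2 (.inl rfl))
  have mj := fun k : commutator (O (QI F 5)) => ext_C h2 f k.2 ((hf j).2 (.inr rfl))
  let a := h.hom.comp (((K2.ext f).comp (commutator _).subtype).codRestrict _ mi)
  let b := h'.hom.comp (((K2.ext f).comp (commutator _).subtype).codRestrict _ mj)
  have pf : a.range = ⁅a.range, a.range⁆ := by
    rw [← map_commutator_eq, commutator_omega_eq_top (ndI h2) (by simp), MonoidHom.range_eq_map]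
  have cm : ∀ k l, (l = i ∨ l = j) → a k * al l = al l * a k := fun k l c => by
    rw [← h.ao]
    exact (h.mul _ (mi k) _ (ao_mem h2 hs i l)).symm.trans ((congrArg ψ (mem_centralizer_singleton_iff.1
      (ext_C h2 f k.2 ((hf l).2 c)).2)).trans (h.mul _ (ao_mem h2 hs i l) _ (mi k)))
  have s1 : a.range ≤ ((C F i).subgroupOf (C F j)).map h'.hom := pf.trans_le (commutator_le.2 (by
    rintro _ ⟨k, rfl⟩ _ ⟨k', rfl⟩
    obtain ⟨y, hy, e⟩ := h'.comm h2 hs (cm k j (.inr rfl)) (cm k' j (.inr rfl))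
    refine ⟨⟨y, hy⟩, ⟨hy.1, mem_centralizer_singleton_iff.2 (h'.inj _ (mul_mem hy (ao_mem h2 hs ..)) _ (mul_mem (ao_mem h2 hs ..) hy) ?_)⟩,
      e.symm⟩
    change φ (y * _) = φ (_ * y)
    rw [h'.mul _ hy _ (ao_mem h2 hs ..), h'.mul _ (ao_mem h2 hs ..) _ hy, ← e, h'.ao, ← map_commutatorElement, cm _ i (.inl rfl)]))
  have s2 : a.range ≤ b.range := pf.trans_le ((commutator_mono s1 s1).trans (commutator_le.2 (by
    rintro _ ⟨y, hy, rfl⟩ _ ⟨y', hy', rfl⟩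
    have fx : ∀ l, y.1 ∈ C F l → y'.1 ∈ C F l → (⁅y, y'⁆ : C F j).1.1 (Pi.single l 1) = Pi.single l 1 := fun l c c' => by
      have : (y.1 * y'.1).1 (Pi.single l 1) = (y'.1 * y.1).1 (Pi.single l 1) ∧ ∃ c : F, c * c = 1 ∧
          (y'.1 * y.1).1 (Pi.single l 1) = c • Pi.single l 1 := by
        rcases (comm_ao h2).1 c.2 with e | e <;> rcases (comm_ao h2).1 c'.2 with e' | e' <;> simp only [O.mul_apply, e, e', map_neg, neg_neg]
        exacts [⟨trivial, 1, by simp⟩, ⟨trivial, -1, by simp⟩, ⟨trivial, -1, by simp⟩, ⟨trivial, 1, by simp⟩]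
      obtain ⟨e, c, c1, e'⟩ := this
      change (y.1 * y'.1).1 (((y'.1 * y.1)⁻¹).1 _) = _
      rw [(O.inv_apply_eq _).2 (show _ = (y'.1 * y.1).1 (c • Pi.single l 1) by rw [_root_.map_smul, e', smul_smul, c1, one_smul]),
        _root_.map_smul, e, e', smul_smul, c1, one_smul]
    obtain ⟨k, hk, e⟩ := of_fix h2 f hf (⁅y, y'⁆ : C F j).2.1 (fx i hy hy') (fx j y.2 y'.2)
    exact ⟨⟨k, hk⟩, (congrArg h'.hom (Subtype.ext e)).trans (map_commutatorElement ..)⟩)))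
  have ib : Function.Injective b := fun k k' e => Subtype.ext (ext_injective f (h'.inj _ (mj k) _ (mj k') e))
  let β := (MonoidHom.ofInjective ib).symm.toMonoidHom.comp (a.codRestrict _ fun k => s2 ⟨k, rfl⟩)
  have hβ : ∀ k, b (β k) = a k := fun k => MonoidHom.apply_ofInjective_symm ib _
  obtain ⟨γ, hγ⟩ := autOm (ndI h2) (by simp) (surj5 (ndI h2) (by simp)) (MulEquiv.ofBijective β (Finite.injective_iff_bijective.1
    fun k k' e => Subtype.ext (ext_injective f (h.inj _ (mi k) _ (mi k') ((hβ k).symm.trans ((congrArg b e).trans (hβ k')))))))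
  obtain ⟨ε, hε⟩ := diag h2 (by decide) (γ := γ) fun x y => by
    have e : ext f (SI F 5 (ms x * ms y)) = A12S.ao F (f x) * A12S.ao F (f y) := by rw [ext_SI, extend_ms, ao_mul]
    have m := (ext_mem f h2).1 (e ▸ (mul_mem (ao_mem h2 hs i _) (ao_mem h2 hs i _)).1)
    refine (hγ ⟨_, m⟩).symm.trans (congrArg Subtype.val (ib (a₁ := β ⟨_, m⟩) (a₂ := ⟨_, m⟩) ((hβ _).trans ?_)))
    change ψ (K2.ext f (SI F 5 _)) = φ (K2.ext f (SI F 5 _))
    rw [e, h.mul _ (ao_mem h2 hs ..) _ (ao_mem h2 hs ..), h'.mul _ (ao_mem h2 hs ..) _ (ao_mem h2 hs ..), h.ao, h.ao, h'.ao, h'.ao]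
  refine ⟨Function.extend f ε 1, γ.σ, ind2 h2 hs f hf hij (fun k hk => (hβ ⟨k, hk⟩).symm.trans (congrArg φ ?_)) fun y hy hy' k e => ?_⟩
  · rw [tw_apply, show fa γ.σ (ext f k) = _ from Φ_ext .., SI_ext, Function.extend_comp f.injective]
    exact congrArg (K2.ext f) ((hγ ⟨k, hk⟩).trans (by rw [hε, map_mul, cj_ofO]; rfl))
  · rw [h.mul _ hy _ (ao_mem h2 hs ..), map_mul, h'.mul _ ((aut_mem (tw_ao ..)).2 hy') _ ((aut_mem (tw_ao ..)).2 (ao_mem h2 hs ..)), tw_ao,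
      e, h.ao, h'.ao]

end Cfsg.Lib.A12S.R2
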